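import Mathlib

set_option autoImplicit false

/-! # Ladder CYC1 (S4649): definitions

`A` is a finite dimensional algebra over a field `F`, `J` its radical, `e` an idempotent with
`e A e` local. -/

namespace Cfsg.Agent.Lib.Helper78.Cyc1

open scoped TensorProduct

variable {F A : Type*} [Field F] [Ring A] [Algebra F A]

/-- the radical `e J e` of the corner `e A e`, as a subspace of `A` -/
def J0 (F : Type*) {A : Type*} [Field F] [Ring A] [Algebra F A] (J : Ideal A) (e : A) :
    Submodule F A where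
  carrier := {a | a ∈ J ∧ e * a = a ∧ a * e = a}
  add_mem' := by
    rintro a b ⟨ha, ha1, ha2⟩ ⟨hb, hb1, hb2⟩
    exact ⟨J.add_mem ha hb, by rw [mul_add, ha1, hb1], by rw [add_mul, ha2, hb2]⟩
  zero_mem' := ⟨J.zero_mem, mul_zero _, zero_mul _⟩
  smul_mem' := by
    rintro c a ⟨ha, ha1, ha2⟩
    refine ⟨?_, by rw [mul_smul_comm, ha1], by rw [smul_mul_assoc, ha2]⟩
    rw [← one_mul a, ← smul_mul_assoc]
    exact J.mul_mem_left _ ha

theorem mem_J0 {J : Ideal A} {e a : A} : a ∈ J0 F J e ↔ a ∈ J ∧ e * a = a ∧ a * e = a := Iff.rfl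

/-- the ideal `J₀² + F (x - μ y)` of the corner -/
def Kmu (J : Ideal A) (e x y : A) (μ : F) : Submodule F A :=
  J0 F J e * J0 F J e ⊔ Submodule.span F {x - μ • y}

/-- the left ideal `A (1 - e) + A K_μ` of `A` -/
def Lmu (J : Ideal A) (e x y : A) (μ : F) : Ideal A :=
  Ideal.span (insert (1 - e) (Kmu J e x y μ : Set A))

/-- relations of the module induced from `(W, T)` along `F[a] → A` -/
def IndS {W : Type*} [AddCommGroup W] [Module F W] (a : A) (T : Module.End F W) :
    Submodule A (A ⊗[F] W) :=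
  Submodule.span A (Set.range fun w : W => a ⊗ₜ[F] w - (1 : A) ⊗ₜ[F] T w)

/-- the module induced from `(W, T)` along `F[a] → A` -/
abbrev Ind {W : Type*} [AddCommGroup W] [Module F W] (a : A) (T : Module.End F W) : Type _ :=
  (A ⊗[F] W) ⧸ IndS a T

/-- "the endomorphism ring of `M` is local" -/
def LocEnd (R M : Type*) [Ring R] [AddCommGroup M] [Module R M] : Prop :=
  ∀ f : Module.End R M, Function.Bijective f ∨ Function.Bijective (1 - f : Module.End R M)

end Cfsg.Agent.Lib.Helper78.Cyc1
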