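import Mathlib

set_option autoImplicit false
set_option linter.unusedSectionVars false

/-! # A local symmetric algebra whose centre has dimension at most four is commutative -/

namespace Cfsg.Agent.Lib.Helper78.Kuls

open Module

theorem eight_rel {F V : Type*} [Field F] [AddCommGroup V] [Module F V] (α β γ : F)
    (X Y X' Y' : V)
    (h1 : α • X = α • X') (h2 : γ • X = α • Y') (h3 : (γ - 1) • X = γ • X')
    (h4 : β • X = γ • Y') (h5 : α • Y = (γ - 1) • X') (h6 : γ • Y = (γ - 1) • Y')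
    (h7 : (γ - 1) • Y = β • X') (h8 : β • Y = β • Y') : X = 0 ∧ Y = 0 := by
  by_cases hγ0 : γ = 0
  · subst hγ0
    have hX : X = 0 := by linear_combination (norm := module) - h3
    have hY' : Y' = 0 := by linear_combination (norm := module) h6
    refine ⟨hX, ?_⟩
    subst hY'
    linear_combination (norm := module) - h7 - β • h5 + α • h8
  by_cases hγ1 : γ = 1
  · subst hγ1
    have hX' : X' = 0 := by linear_combination (norm := module) - h3
    have hY : Y = 0 := by linear_combination (norm := module) h6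
    refine ⟨?_, hY⟩
    subst hX'
    linear_combination (norm := module) h2 - α • h4 + β • h1
  have hγ1' : γ - 1 ≠ 0 := sub_ne_zero.2 hγ1
  have hαX : α • X = 0 := by linear_combination (norm := module) γ • h1 - α • h3
  have hX : X = 0 := by
    by_cases hα : α = 0
    · subst hα
      rw [zero_smul] at h2
      exact (smul_eq_zero.1 h2).resolve_left hγ0
    · exact (smul_eq_zero.1 hαX).resolve_left hα
  subst hX
  rw [smul_zero] at h3
  have hX' : X' = 0 := (smul_eq_zero.1 h3.symm).resolve_left hγ0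
  subst hX'
  rw [smul_zero] at h7
  exact ⟨rfl, (smul_eq_zero.1 h7).resolve_left hγ1'⟩

section
variable {F C : Type*} [Field F] [Ring C] [Algebra F C]

/-- the commutator space -/
def commSp (F : Type*) (C : Type*) [Field F] [Ring C] [Algebra F C] : Submodule F C :=
  Submodule.span F {z | ∃ x y : C, z = x * y - y * x}

theorem comm_mem_commSp (x y : C) : x * y - y * x ∈ commSp F C :=
  Submodule.subset_span ⟨x, y, rfl⟩

theorem pow_ideal {R : Submodule F C} (hR : ∀ a ∈ R, ∀ c : C, a * c ∈ R ∧ c * a ∈ R) (m : ℕ) :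
    ∀ a ∈ R ^ (m + 1), ∀ c : C, a * c ∈ R ^ (m + 1) ∧ c * a ∈ R ^ (m + 1) := by
  induction m with
  | zero => simpa using hR
  | succ m ih =>
    intro a ha c
    rw [pow_succ] at ha
    refine Submodule.mul_induction_on ha ?_ ?_
    · intro u hu v hv
      constructor
      · rw [mul_assoc, pow_succ]
        exact Submodule.mul_mem_mul hu (hR v hv c).1
      · rw [← mul_assoc, pow_succ]
        exact Submodule.mul_mem_mul (ih u hu c).2 hv
    · intro u v hu hv
      rw [add_mul, mul_add]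
      exact ⟨Submodule.add_mem _ hu.1 hv.1, Submodule.add_mem _ hu.2 hv.2⟩

theorem pow_succ_le {R : Submodule F C} (hR : ∀ a ∈ R, ∀ c : C, a * c ∈ R ∧ c * a ∈ R) (m : ℕ) :
    R ^ (m + 2) ≤ R ^ (m + 1) := by
  rw [pow_succ R (m + 1), Submodule.mul_le]
  intro u hu v _
  exact (pow_ideal hR m u hu v).1

theorem pow_le_of_le {R : Submodule F C} (hR : ∀ a ∈ R, ∀ c : C, a * c ∈ R ∧ c * a ∈ R)
    {m k : ℕ} (hm : 1 ≤ m) (hmk : m ≤ k) : R ^ k ≤ R ^ m := by
  induction k, hmk using Nat.le_induction with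
  | base => exact le_rfl
  | succ k hk ih =>
    obtain ⟨j, rfl⟩ : ∃ j, k = j + 1 := ⟨k - 1, by omega⟩
    exact (pow_succ_le hR j).trans ih

theorem commSp_le_sq {R : Submodule F C} (hloc : ∀ c : C, ∃ α : F, c - α • 1 ∈ R) :
    commSp F C ≤ R ^ 2 := by
  rw [commSp, Submodule.span_le]
  rintro _ ⟨x, y, rfl⟩
  obtain ⟨α, hα⟩ := hloc x
  obtain ⟨β, hβ⟩ := hloc y
  have : x * y - y * x = (x - α • 1) * (y - β • 1) - (y - β • 1) * (x - α • 1) := by
    simp only [sub_mul, mul_sub, smul_mul_assoc, mul_smul_comm, one_mul, mul_one]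
    module
  rw [SetLike.mem_coe, this, pow_two]
  exact Submodule.sub_mem _ (Submodule.mul_mem_mul hα hβ) (Submodule.mul_mem_mul hβ hα)

/-- commutators with elements of `R²` -/
theorem comm_sq_mem {R : Submodule F C} {m : ℕ} (hK : commSp F C ≤ R ^ m) (u : C) {w : C}
    (hw : w ∈ R ^ 2) : u * w - w * u ∈ R ^ (m + 1) := by
  rw [pow_two] at hw
  refine Submodule.mul_induction_on hw ?_ ?_
  · intro r hr s hs
    have : u * (r * s) - r * s * u = (u * r - r * u) * s + r * (u * s - s * u) := by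
      simp only [sub_mul, mul_sub, mul_assoc]
      abel
    rw [this]
    refine Submodule.add_mem _ ?_ ?_
    · rw [pow_succ]
      exact Submodule.mul_mem_mul (hK (comm_mem_commSp u r)) hs
    · rw [pow_succ']
      exact Submodule.mul_mem_mul hr (hK (comm_mem_commSp u s))
  · intro a b ha hb
    have : u * (a + b) - (a + b) * u = (u * a - a * u) + (u * b - b * u) := by
      simp only [add_mul, mul_add]; abel
    rw [this]
    exact Submodule.add_mem _ ha hb

/-- Lemma N -/
theorem commSp_le_step {R : Submodule F C} (hloc : ∀ c : C, ∃ α : F, c - α • 1 ∈ R) {x y : C}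
    (hgen : R ≤ Submodule.span F {x, y} ⊔ R ^ 2) {m : ℕ} (hK : commSp F C ≤ R ^ m) :
    commSp F C ≤ Submodule.span F {x * y - y * x} ⊔ R ^ (m + 1) := by
  rw [commSp, Submodule.span_le]
  rintro _ ⟨a, b, rfl⟩
  obtain ⟨α, hα⟩ := hloc a
  obtain ⟨β, hβ⟩ := hloc b
  obtain ⟨a1, ha1, a2, ha2, ha⟩ := Submodule.mem_sup.1 (hgen hα)
  obtain ⟨b1, hb1, b2, hb2, hb⟩ := Submodule.mem_sup.1 (hgen hβ)
  obtain ⟨p1, p2, rfl⟩ := Submodule.mem_span_pair.1 ha1
  obtain ⟨q1, q2, rfl⟩ := Submodule.mem_span_pair.1 hb1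
  have e : a * b - b * a = (p1 * q2 - p2 * q1) • (x * y - y * x)
      + (((p1 • x + p2 • y) * b2 - b2 * (p1 • x + p2 • y))
        - ((b - β • 1) * a2 - a2 * (b - β • 1))) := by
    have ea : a = α • 1 + (p1 • x + p2 • y + a2) := by rw [ha]; abel
    have eb : b = β • 1 + (q1 • x + q2 • y + b2) := by rw [hb]; abel
    have eb' : b - β • 1 = q1 • x + q2 • y + b2 := hb.symm
    rw [eb', ea, eb]
    simp only [add_mul, mul_add, smul_mul_assoc, mul_smul_comm, one_mul, mul_one,
      smul_sub, smul_add, smul_smul, sub_smul]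
    module
  rw [SetLike.mem_coe, e]
  refine Submodule.add_mem _ (Submodule.mem_sup_left
    (Submodule.smul_mem _ _ (Submodule.mem_span_singleton_self _))) (Submodule.mem_sup_right ?_)
  exact Submodule.sub_mem _ (comm_sq_mem hK _ hb2) (comm_sq_mem hK _ ha2)

theorem finrank_le_commSp_add_center [FiniteDimensional F C] (t : C →ₗ[F] F)
    (ht : ∀ x y, t (x * y) = t (y * x)) (hnd : ∀ x, (∀ y, t (x * y) = 0) → x = 0) :
    finrank F C ≤ finrank F (commSp F C) + finrank F (Subalgebra.center F C) := by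
  let B : LinearMap.BilinForm F C := (LinearMap.mul F C).compr₂ t
  have hBa : ∀ a b, B a b = t (a * b) := fun a b => rfl
  have hB : B.Nondegenerate := by
    refine ⟨fun a ha => hnd a fun b => ?_, fun a ha => hnd a fun b => ?_⟩
    · rw [← hBa, ha]
    · rw [ht, ← hBa, ha]
  have h1 : B.orthogonal (commSp F C) ≤ Subalgebra.toSubmodule (Subalgebra.center F C) := by
    intro c hc
    rw [LinearMap.BilinForm.mem_orthogonal_iff] at hc
    rw [Subalgebra.mem_toSubmodule, Subalgebra.mem_center_iff]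
    intro x
    rw [← sub_eq_zero]
    apply hnd
    intro y
    have h2 : t ((y * x - x * y) * c) = 0 := hc _ (comm_mem_commSp y x)
    have e1 : t (x * c * y) = t (y * x * c) := by rw [ht, mul_assoc]
    have e2 : t (c * x * y) = t (x * y * c) := by rw [mul_assoc, ht]
    rw [sub_mul, map_sub, e1, e2, ← map_sub, ← sub_mul]
    exact h2
  have h2 := Submodule.finrank_mono h1
  rw [LinearMap.BilinForm.finrank_orthogonal hB] at h2
  have h3 : finrank F (Subalgebra.toSubmodule (Subalgebra.center F C))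
      = finrank F (Subalgebra.center F C) := rfl
  omega

/-- one associativity relation modulo `R⁴` -/
theorem assoc_rel {R : Submodule F C} {c u v w r s : C} {lam mu : F} (hu : u ∈ R) (hw : w ∈ R)
    (hr : r ∈ R ^ 3) (hs : s ∈ R ^ 3) (e1 : lam • c + r = v * w) (e2 : mu • c + s = u * v) :
    lam • (R ^ 4).mkQ (u * c) = mu • (R ^ 4).mkQ (c * w) := by
  rw [← map_smul, ← map_smul, Submodule.mkQ_apply, Submodule.mkQ_apply, Submodule.Quotient.eq]
  have h : lam • (u * c) - mu • (c * w) = s * w - u * r := by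
    have h1 : u * (v * w) = (u * v) * w := (mul_assoc u v w).symm
    rw [← e1, ← e2, mul_add, add_mul, mul_smul_comm, smul_mul_assoc] at h1
    linear_combination (norm := module) h1
  rw [h]
  refine Submodule.sub_mem _ ?_ ?_
  · rw [pow_succ R 3]; exact Submodule.mul_mem_mul hs hw
  · rw [pow_succ' R 3]; exact Submodule.mul_mem_mul hu hr

theorem loc_comm [FiniteDimensional F C]
    (t : C →ₗ[F] F) (ht : ∀ x y, t (x * y) = t (y * x))
    (hnd : ∀ x, (∀ y, t (x * y) = 0) → x = 0)
    (R : Submodule F C) (hR : ∀ a ∈ R, ∀ c : C, a * c ∈ R ∧ c * a ∈ R)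
    (hnil : ∃ N : ℕ, R ^ N = ⊥) (hloc : ∀ c : C, ∃ α : F, c - α • 1 ∈ R)
    (hz : finrank F (Subalgebra.center F C) ≤ 4) :
    ∀ x y : C, x * y = y * x := by
  obtain ⟨K, hK⟩ : ∃ K, K = commSp F C := ⟨_, rfl⟩
  suffices hK0 : K = ⊥ by
    intro x y
    have := comm_mem_commSp (F := F) x y
    rw [← hK, hK0, Submodule.mem_bot, sub_eq_zero] at this
    exact this
  obtain ⟨N, hN⟩ := hnil
  have hbig : ∀ m, N ≤ m → R ^ m = ⊥ := fun m hm =>
    pow_eq_zero_of_le hm (show R ^ N = 0 from hN)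
  have hK2 : K ≤ R ^ 2 := hK ▸ commSp_le_sq hloc
  have hdesc : (∀ m, 2 ≤ m → K ≤ R ^ m → K ≤ R ^ (m + 1)) → K = ⊥ := by
    intro h
    have : ∀ m, 2 ≤ m → K ≤ R ^ m := by
      intro m hm
      induction m, hm using Nat.le_induction with
      | base => exact hK2
      | succ m hm ih => exact h m hm ih
    rw [eq_bot_iff, ← hbig (max N 2) (le_max_left _ _)]
    exact this _ (le_max_right _ _)
  have hnoideal : ∀ I : Submodule F C, (∀ a ∈ I, ∀ c, a * c ∈ I) → (∀ a ∈ I, t a = 0) →
      I = ⊥ := by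
    intro I hI hIt
    rw [eq_bot_iff]
    intro a ha
    rw [Submodule.mem_bot]
    exact hnd a (fun y => hIt _ (hI a ha y))
  have htK : ∀ a ∈ K, t a = 0 := by
    intro a ha
    rw [hK, commSp] at ha
    induction ha using Submodule.span_induction with
    | mem a ha =>
      obtain ⟨x, y, rfl⟩ := ha
      rw [map_sub, ht, sub_self]
    | zero => exact map_zero t
    | add a b _ _ ha hb => rw [map_add, ha, hb, add_zero]
    | smul r a _ ha => rw [map_smul, ha, smul_zero]
  -- one generator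
  by_cases h1 : ∃ x ∈ R, R ≤ Submodule.span F {x} ⊔ R ^ 2
  · obtain ⟨x, hx, hgen⟩ := h1
    apply hdesc
    intro m hm hKm
    have hgen' : R ≤ Submodule.span F {x, 0} ⊔ R ^ 2 :=
      hgen.trans (sup_le_sup_right (Submodule.span_mono (by simp)) _)
    have := commSp_le_step hloc hgen' (hK ▸ hKm)
    rw [← hK] at this
    simpa using this
  push Not at h1
  obtain ⟨x, hx, hx'⟩ := SetLike.not_le_iff_exists.1 (h1 0 R.zero_mem)
  obtain ⟨y, hy, hy'⟩ := SetLike.not_le_iff_exists.1 (h1 x hx)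
  have hR21 : R ^ 2 ≤ R := by simpa using pow_succ_le hR 0
  obtain ⟨S1, hS1⟩ : ∃ S1, S1 = Submodule.span F {x} ⊔ R ^ 2 := ⟨_, rfl⟩
  obtain ⟨S2, hS2⟩ : ∃ S2, S2 = Submodule.span F {x, y} ⊔ R ^ 2 := ⟨_, rfl⟩
  have hlt1 : R ^ 2 < S1 := by
    refine lt_of_le_of_ne (hS1 ▸ le_sup_right) ?_
    intro h
    apply hx'
    have : x ∈ S1 := hS1 ▸ Submodule.mem_sup_left (Submodule.mem_span_singleton_self x)
    rw [← h] at this
    exact Submodule.mem_sup_right this
  have hlt2 : S1 < S2 := by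
    refine lt_of_le_of_ne ?_ ?_
    · rw [hS1, hS2]
      exact sup_le_sup_right (Submodule.span_mono (by simp)) _
    · intro h
      apply hy'
      rw [← hS1, h, hS2]
      exact Submodule.mem_sup_left (Submodule.subset_span (by simp))
  have hS2R : S2 ≤ R := by
    rw [hS2]
    refine sup_le ?_ hR21
    rw [Submodule.span_le]
    rintro z hz
    rcases hz with rfl | hz
    · exact hx
    · rw [Set.mem_singleton_iff] at hz; rw [hz]; exact hy
  have hf1 := Submodule.finrank_lt_finrank_of_lt hlt1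
  have hf2 := Submodule.finrank_lt_finrank_of_lt hlt2
  have hf3 := Submodule.finrank_mono hS2R
  by_cases hone : (1 : C) ∈ R
  · have h10 : (1 : C) = 0 := by
      have := Submodule.pow_mem_pow R hone N
      rw [hN, one_pow, Submodule.mem_bot] at this
      exact this
    rw [eq_bot_iff]
    intro a _
    rw [Submodule.mem_bot, ← mul_one a, h10, mul_zero]
  have hf4 : finrank F R < finrank F C := by
    apply Submodule.finrank_lt
    intro h
    apply hone
    rw [h]; exact Submodule.mem_top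
  have hf5 := finrank_le_commSp_add_center t ht hnd
  rw [← hK] at hf5
  by_cases hR2 : ∀ a ∈ R ^ 2, t a = 0
  · have := hnoideal (R ^ 2) (fun a ha c => (pow_ideal hR 1 a ha c).1) hR2
    rw [eq_bot_iff, ← this]
    exact hK2
  push Not at hR2
  obtain ⟨a0, ha0, hta0⟩ := hR2
  obtain ⟨L2, hL2⟩ : ∃ L2, L2 = R ^ 2 ⊓ LinearMap.ker t := ⟨_, rfl⟩
  have hKL : K ≤ L2 := by
    rw [hL2]
    exact le_inf hK2 (fun a ha => LinearMap.mem_ker.2 (htK a ha))
  have hlt3 : L2 < R ^ 2 := by
    refine lt_of_le_of_ne (hL2 ▸ inf_le_left) ?_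
    intro h
    apply hta0
    rw [← h, hL2] at ha0
    exact LinearMap.mem_ker.1 ha0.2
  have hf6 := Submodule.finrank_lt_finrank_of_lt hlt3
  have hf7 := Submodule.finrank_mono hKL
  have hKL' : K = L2 := Submodule.eq_of_le_of_finrank_le hKL (by omega)
  have hS2R' : S2 = R := Submodule.eq_of_le_of_finrank_le hS2R (by omega)
  by_cases hR3 : ∀ a ∈ R ^ 3, t a = 0
  · have h3 := hnoideal (R ^ 3) (fun a ha c => (pow_ideal hR 2 a ha c).1) hR3
    rw [hKL']
    apply hnoideal L2
    · intro a ha c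
      obtain ⟨α, hα⟩ := hloc c
      have h4 : a * (c - α • 1) = 0 := by
        have : a * (c - α • 1) ∈ R ^ 3 := by
          rw [pow_succ R 2]
          rw [hL2] at ha
          exact Submodule.mul_mem_mul ha.1 hα
        rw [h3, Submodule.mem_bot] at this
        exact this
      have h5 : a * c = α • a := by
        rw [mul_sub, mul_smul_comm, mul_one, sub_eq_zero] at h4
        exact h4
      rw [h5]
      exact Submodule.smul_mem _ _ ha
    · intro a ha
      rw [hL2] at ha
      exact LinearMap.mem_ker.1 ha.2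
  exfalso
  push Not at hR3
  obtain ⟨w, hw, htw⟩ := hR3
  obtain ⟨c, hc⟩ : ∃ c, c = x * y - y * x := ⟨_, rfl⟩
  have hR32 : R ^ 3 ≤ R ^ 2 := pow_succ_le hR 1
  have hKc : K ≤ Submodule.span F {c} ⊔ R ^ 3 := by
    have := commSp_le_step hloc (x := x) (y := y) (by rw [← hS2, hS2R']) (hK ▸ hK2)
    rw [← hK, ← hc] at this
    exact this
  have hR2c : R ^ 2 ≤ Submodule.span F {c} ⊔ R ^ 3 := by
    intro a ha
    have h1 : a - (t a / t w) • w ∈ L2 := by
      rw [hL2]
      refine ⟨Submodule.sub_mem _ ha (Submodule.smul_mem _ _ (hR32 hw)), ?_⟩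
      rw [SetLike.mem_coe, LinearMap.mem_ker, map_sub, map_smul, smul_eq_mul,
        div_mul_cancel₀ _ htw, sub_self]
    have h2 : a = (a - (t a / t w) • w) + (t a / t w) • w := by abel
    rw [h2]
    exact Submodule.add_mem _ (hKc (hKL' ▸ h1))
      (Submodule.mem_sup_right (Submodule.smul_mem _ _ hw))
  have hdec : ∀ u ∈ R, ∀ v ∈ R, ∃ (lam : F) (r : C), r ∈ R ^ 3 ∧ lam • c + r = u * v := by
    intro u hu v hv
    have : u * v ∈ R ^ 2 := by rw [pow_two]; exact Submodule.mul_mem_mul hu hv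
    obtain ⟨z, hz, r, hr, e⟩ := Submodule.mem_sup.1 (hR2c this)
    obtain ⟨lam, rfl⟩ := Submodule.mem_span_singleton.1 hz
    exact ⟨lam, r, hr, e⟩
  obtain ⟨α, r1, hr1, e1⟩ := hdec x hx x hx
  obtain ⟨γ, r2, hr2, e2⟩ := hdec x hx y hy
  obtain ⟨β, r4, hr4, e4⟩ := hdec y hy y hy
  have e3 : (γ - 1) • c + r2 = y * x := by
    have : y * x = x * y - c := by rw [hc]; abel
    rw [this, ← e2]
    module
  obtain ⟨hX, hY⟩ := eight_rel α β γ ((R ^ 4).mkQ (x * c)) ((R ^ 4).mkQ (y * c))
    ((R ^ 4).mkQ (c * x)) ((R ^ 4).mkQ (c * y))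
    (assoc_rel hx hx hr1 hr1 e1 e1) (assoc_rel hx hy hr2 hr1 e2 e1)
    (assoc_rel hx hx hr2 hr2 e3 e2) (assoc_rel hx hy hr4 hr2 e4 e2)
    (assoc_rel hy hx hr1 hr2 e1 e3) (assoc_rel hy hy hr2 hr2 e2 e3)
    (assoc_rel hy hx hr2 hr4 e3 e4) (assoc_rel hy hy hr4 hr4 e4 e4)
  rw [Submodule.mkQ_apply, Submodule.Quotient.mk_eq_zero] at hX hY
  have h34 : R ^ 3 ≤ R ^ 4 := by
    rw [pow_succ' R 2, Submodule.mul_le]
    intro r hr s hs
    rw [← hS2R', hS2] at hr
    obtain ⟨r', hr', r'', hr'', rfl⟩ := Submodule.mem_sup.1 hr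
    obtain ⟨p1, p2, rfl⟩ := Submodule.mem_span_pair.1 hr'
    obtain ⟨s', hs', s'', hs'', rfl⟩ := Submodule.mem_sup.1 (hR2c hs)
    obtain ⟨σ, rfl⟩ := Submodule.mem_span_singleton.1 hs'
    have e : (p1 • x + p2 • y + r'') * (σ • c + s'')
        = (p1 * σ) • (x * c) + (p2 * σ) • (y * c) + (p1 • x + p2 • y) * s''
          + r'' * (σ • c + s'') := by
      simp only [add_mul, mul_add, smul_mul_assoc, mul_smul_comm]
      module
    rw [e]
    refine Submodule.add_mem _ (Submodule.add_mem _ (Submodule.add_mem _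
      (Submodule.smul_mem _ _ hX) (Submodule.smul_mem _ _ hY)) ?_) ?_
    · rw [pow_succ' R 3]
      exact Submodule.mul_mem_mul
        (Submodule.add_mem _ (Submodule.smul_mem _ _ hx) (Submodule.smul_mem _ _ hy)) hs''
    · have : R ^ 4 = R ^ 2 * R ^ 2 := by rw [← pow_add]
      rw [this]
      exact Submodule.mul_mem_mul hr'' hs
  have hall : ∀ m, 3 ≤ m → R ^ 3 ≤ R ^ m := by
    intro m hm
    induction m, hm using Nat.le_induction with
    | base => exact le_rfl
    | succ m hm ih =>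
      calc R ^ 3 ≤ R ^ 4 := h34
        _ = R ^ 3 * R := pow_succ R 3
        _ ≤ R ^ m * R := mul_le_mul' ih le_rfl
        _ = R ^ (m + 1) := (pow_succ R m).symm
  have hw0 := hall (max N 3) (le_max_right _ _) hw
  rw [hbig _ (le_max_left _ _), Submodule.mem_bot] at hw0
  exact htw (by rw [hw0, map_zero])

end

end Cfsg.Agent.Lib.Helper78.Kuls
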