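import Mathlib
import Cfsg.Agent.Lib.Helper57.KulsCOR

set_option autoImplicit false

/-! # Ladder CYC1: rungs COR2 and REL2 -/

namespace Cfsg.Agent.Lib.Helper78.Cyc1

open Module Cfsg.Agent.Lib.Helper57.Kuls

/-- [COR2] a commutative corner bounds the dimension -/
theorem corner_bound_comm {F A : Type*} [Field F] [Ring A] [Algebra F A] [FiniteDimensional F A]
    {n : ℕ} (ι : A) (hι : ι * ι = ι)
    (x y : Fin n → A) (h1 : ∑ k, x k * ι * y k = 1)
    (hcomm' : ∀ a b : A, (ι * a * ι) * (ι * b * ι) = (ι * b * ι) * (ι * a * ι)) :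
    finrank F A ≤ n ^ 2 * finrank F (Subalgebra.center F A) := by
  have idem : IsIdempotentElem ι := hι
  have hfd : FiniteDimensional F idem.Corner :=
    FiniteDimensional.of_injective (cornerValL F idem) Subtype.val_injective
  have hS : ∀ S : Submodule F idem.Corner, (∀ c ∈ S, ∀ d : idem.Corner, d * c = c * d) →
      finrank F S ≤ finrank F (Subalgebra.center F A) := by
    intro S hS
    have hc : ∀ c ∈ S, ∀ u, (ι * u * ι) * c.1 = c.1 * (ι * u * ι) := fun c hc u =>
      congrArg Subtype.val (hS c hc (cornerMk idem u))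
    let Ψ : S →ₗ[F] Subalgebra.center F A :=
      { toFun := fun c => ⟨∑ k, x k * c.1.1 * y k, by
          rw [Subalgebra.mem_center_iff]
          intro a
          exact phi_central h1 c.1.1 (corner_left idem _) (corner_right idem _) (hc c.1 c.2) a⟩
        map_add' := by
          intro c d
          apply Subtype.ext
          change ∑ k, x k * (c.1.1 + d.1.1) * y k = ∑ k, x k * c.1.1 * y k + ∑ k, x k * d.1.1 * y k
          rw [← Finset.sum_add_distrib]
          refine Finset.sum_congr rfl fun k _ => ?_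
          rw [mul_add, add_mul]
        map_smul' := by
          intro r c
          apply Subtype.ext
          change ∑ k, x k * (r • c.1.1) * y k = r • ∑ k, x k * c.1.1 * y k
          rw [Finset.smul_sum]
          refine Finset.sum_congr rfl fun k _ => ?_
          rw [mul_smul_comm, smul_mul_assoc] }
    refine LinearMap.finrank_le_finrank_of_injective (f := Ψ) ?_
    intro c d hcd
    have h2 : ∑ k, x k * c.1.1 * y k = ∑ k, x k * d.1.1 * y k := congrArg Subtype.val hcd
    apply Subtype.ext
    apply Subtype.ext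
    rw [← phi_inj h1 c.1.1 (corner_left idem _) (corner_right idem _) (hc c.1 c.2), h2,
      phi_inj h1 d.1.1 (corner_left idem _) (corner_right idem _) (hc d.1 d.2)]
  have hcomm : ∀ c d : idem.Corner, c * d = d * c := by
    intro c d
    apply Subtype.ext
    have h := hcomm' c.1 d.1
    rw [corner_left idem c, corner_right idem c, corner_left idem d, corner_right idem d] at h
    exact h
  have h3 : finrank F idem.Corner ≤ finrank F (Subalgebra.center F A) := by
    rw [← finrank_top F idem.Corner]
    exact hS ⊤ (fun c _ d => hcomm d c)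
  let Θ : (Fin n × Fin n → idem.Corner) →ₗ[F] A :=
    ∑ kl : Fin n × Fin n, (LinearMap.mulLeft F (x kl.1)) ∘ₗ (LinearMap.mulRight F (y kl.2)) ∘ₗ
      (cornerValL F idem) ∘ₗ (LinearMap.proj kl)
  have hΘ : Function.Surjective Θ := by
    intro a
    refine ⟨fun kl => cornerMk idem (y kl.1 * a * x kl.2), ?_⟩
    conv_rhs => rw [resolve h1 a]
    rw [← Finset.sum_product']
    simp only [Θ, LinearMap.sum_apply]
    refine Finset.sum_congr rfl fun kl _ => ?_
    change x kl.1 * ((ι * (y kl.1 * a * x kl.2) * ι) * y kl.2) = _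
    simp only [mul_assoc]
  have h4 := LinearMap.finrank_le_finrank_of_surjective hΘ
  rw [finrank_pi_fintype, Finset.sum_const, Finset.card_univ, Fintype.card_prod, Fintype.card_fin,
    smul_eq_mul] at h4
  calc finrank F A ≤ n * n * finrank F idem.Corner := h4
    _ ≤ n ^ 2 * finrank F (Subalgebra.center F A) := by
      rw [sq]; exact Nat.mul_le_mul_left _ h3

universe u v

/-- [REL2] passage from a unital algebra to a block `bR` of an algebra `R`; the quotient map is
handed to the unital statement -/
theorem abs_relative_mk {F : Type v} {R : Type u} [Field F] [IsAlgClosed F] [Ring R] [Algebra F R]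
    [FiniteDimensional F R]
    (b : R) (hbb : b * b = b) (hbc : ∀ x, b * x = x * b) (hb0 : b ≠ 0)
    (habs : ∀ (A : Type u) [Ring A] [Algebra F A] [FiniteDimensional F A] [Nontrivial A]
      (mk : R →ₐ[F] A), Function.Surjective mk → mk b = 1 →
      (∀ f₁ f₂ : A →ₗ[F] F, (∀ x y, f₁ (x * y) = f₁ (y * x)) →
        (∀ x y, f₂ (x * y) = f₂ (y * x)) → (∀ x, IsNilpotent x → f₁ x = 0) →
        (∀ x, IsNilpotent x → f₂ x = 0) → ¬ LinearIndependent F ![f₁, f₂]) →
      ∃ n : ℕ, finrank F A ≤ n ^ 2 * finrank F (Subalgebra.center F A) ∧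
        ∀ z : A, (∀ x, z * x = x * z) → z ≠ 0 →
          n ^ 2 ≤ finrank F (LinearMap.range (LinearMap.mulLeft F z)))
    (hl : ∀ f₁ f₂ : R →ₗ[F] F, (∀ x y, f₁ (x * y) = f₁ (y * x)) →
      (∀ x y, f₂ (x * y) = f₂ (y * x)) → (∀ x, f₁ (b * x) = f₁ x) → (∀ x, f₂ (b * x) = f₂ x) →
      (∀ x, IsNilpotent x → f₁ x = 0) → (∀ x, IsNilpotent x → f₂ x = 0) →
      ¬ LinearIndependent F ![f₁, f₂])
    (Zb : Submodule F R) (hZb : ∀ c, (∀ x, c * x = x * c) → b * c = c → c ∈ Zb) :
    ∃ n : ℕ, finrank F (LinearMap.range (LinearMap.mulLeft F b)) ≤ n ^ 2 * finrank F Zb ∧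
      ∀ z : R, (∀ x, z * x = x * z) → b * z = z → z ≠ 0 →
        n ^ 2 ≤ finrank F (LinearMap.range (LinearMap.mulLeft F z)) := by
  let I : Ideal R :=
    { carrier := {x | b * x = 0}
      add_mem' := fun {x y} hx hy => by
        show b * (x + y) = 0
        rw [mul_add, show b * x = 0 from hx, show b * y = 0 from hy, add_zero]
      zero_mem' := mul_zero b
      smul_mem' := fun c x hx => by
        show b * (c * x) = 0
        rw [← mul_assoc, hbc c, mul_assoc, show b * x = 0 from hx, mul_zero] }
  have hI : ∀ x, x ∈ I ↔ b * x = 0 := fun x => Iff.rfl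
  have : I.IsTwoSided := ⟨fun {x} r hx => by
    show b * (x * r) = 0
    rw [← mul_assoc, show b * x = 0 from hx, zero_mul]⟩
  let mk : R →ₐ[F] (R ⧸ I) := Ideal.Quotient.mkₐ F I
  have hmk : Function.Surjective mk := Ideal.Quotient.mkₐ_surjective F I
  have hmk0 : ∀ x, mk x = 0 ↔ b * x = 0 := fun x => by
    show Ideal.Quotient.mk I x = 0 ↔ _
    rw [Ideal.Quotient.eq_zero_iff_mem, hI]
  have hmkeq : ∀ x y, mk x = mk y → b * x = b * y := fun x y h => by
    have : mk (x - y) = 0 := by rw [map_sub, h, sub_self]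
    rw [hmk0, mul_sub, sub_eq_zero] at this
    exact this
  have hmkb : mk b = 1 := by
    have : mk (b - 1) = 0 := by
      rw [hmk0, mul_sub, hbb, mul_one, sub_self]
    rw [map_sub, map_one, sub_eq_zero] at this
    exact this
  let σ : (R ⧸ I) → R := Function.surjInv hmk
  have hσ : ∀ a, mk (σ a) = a := Function.surjInv_eq hmk
  have hσb : ∀ x, b * σ (mk x) = b * x := fun x => hmkeq _ _ (hσ _)
  let φ : (R ⧸ I) →ₗ[F] R :=
    { toFun := fun a => b * σ a
      map_add' := fun a a' => by
        obtain ⟨x, rfl⟩ := hmk a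
        obtain ⟨y, rfl⟩ := hmk a'
        rw [← map_add, hσb, hσb, hσb, mul_add]
      map_smul' := fun c a => by
        obtain ⟨x, rfl⟩ := hmk a
        rw [← map_smul, hσb, hσb, mul_smul_comm, RingHom.id_apply] }
  have hφ : ∀ x, φ (mk x) = b * x := fun x => hσb x
  have hφinj : Function.Injective φ := by
    intro a a' h
    obtain ⟨x, rfl⟩ := hmk a
    obtain ⟨y, rfl⟩ := hmk a'
    rw [hφ, hφ] at h
    have : mk (x - y) = 0 := by rw [hmk0, mul_sub, h, sub_self]
    rwa [map_sub, sub_eq_zero] at this
  have hnt : Nontrivial (R ⧸ I) := by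
    refine nontrivial_of_ne 1 0 ?_
    intro h
    rw [← hmkb, hmk0, hbb] at h
    exact hb0 h
  have hcen : ∀ a : R ⧸ I, (∀ a', a * a' = a' * a) → φ a ∈ Zb := by
    intro a ha
    obtain ⟨c, rfl⟩ := hmk a
    rw [hφ]
    apply hZb
    · intro x
      have h2 := ha (mk x)
      rw [← map_mul, ← map_mul] at h2
      have h3 := hmkeq _ _ h2
      rw [mul_assoc, h3, ← mul_assoc, hbc x, mul_assoc]
    · rw [← mul_assoc, hbb]
  have hzA : finrank F (Subalgebra.center F (R ⧸ I)) ≤ finrank F Zb := by
    apply LinearMap.finrank_le_finrank_of_injective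
      (f := (φ.comp (Subalgebra.center F (R ⧸ I)).val.toLinearMap).codRestrict Zb (by
        intro c
        apply hcen
        intro a'
        exact ((Subalgebra.mem_center_iff.mp c.2) a').symm))
    intro c c' h
    apply Subtype.ext
    apply hφinj
    exact congrArg Subtype.val h
  obtain ⟨n, hn1, hn2⟩ := habs (R ⧸ I) mk hmk hmkb
    (by
      intro f₁ f₂ h₁ h₂ hn₁ hn₂ hli
      apply hl (f₁.comp mk.toLinearMap) (f₂.comp mk.toLinearMap)
      · intro x y
        simp only [LinearMap.comp_apply, AlgHom.toLinearMap_apply, map_mul]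
        exact h₁ _ _
      · intro x y
        simp only [LinearMap.comp_apply, AlgHom.toLinearMap_apply, map_mul]
        exact h₂ _ _
      · intro x
        simp only [LinearMap.comp_apply, AlgHom.toLinearMap_apply, map_mul, hmkb, one_mul]
      · intro x
        simp only [LinearMap.comp_apply, AlgHom.toLinearMap_apply, map_mul, hmkb, one_mul]
      · intro x hx
        exact hn₁ _ (hx.map mk)
      · intro x hx
        exact hn₂ _ (hx.map mk)
      · rw [LinearIndependent.pair_iff] at hli ⊢
        intro s t' hst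
        apply hli
        apply LinearMap.ext
        intro a
        obtain ⟨x, rfl⟩ := hmk a
        exact LinearMap.congr_fun hst x)
  refine ⟨n, ?_, ?_⟩
  · have h2 : finrank F (LinearMap.range (LinearMap.mulLeft F b)) ≤ finrank F (R ⧸ I) := by
      apply LinearMap.finrank_le_finrank_of_injective
        (f := mk.toLinearMap.comp (LinearMap.range (LinearMap.mulLeft F b)).subtype)
      intro x y hxy
      obtain ⟨x, ⟨x', rfl⟩⟩ := x
      obtain ⟨y, ⟨y', rfl⟩⟩ := y
      apply Subtype.ext
      have h3 : mk (b * x') = mk (b * y') := hxy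
      have h4 := hmkeq _ _ h3
      rw [← mul_assoc, ← mul_assoc, hbb] at h4
      exact h4
    exact h2.trans (hn1.trans (Nat.mul_le_mul_left _ hzA))
  · intro z hzc hbz hz0
    have h1 := hn2 (mk z)
      (by
        intro a
        obtain ⟨x, rfl⟩ := hmk a
        rw [← map_mul, ← map_mul, hzc])
      (by
        intro h
        rw [hmk0, hbz] at h
        exact hz0 h)
    have h3 : LinearMap.range (LinearMap.mulLeft F (mk z)) ≤
        (LinearMap.range (LinearMap.mulLeft F z)).map mk.toLinearMap := by
      rintro _ ⟨a, rfl⟩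
      obtain ⟨x, rfl⟩ := hmk a
      exact ⟨z * x, ⟨x, rfl⟩, by simp⟩
    have h4 := Submodule.finrank_mono h3
    have h5 := Submodule.finrank_map_le mk.toLinearMap (LinearMap.range (LinearMap.mulLeft F z))
    omega

end Cfsg.Agent.Lib.Helper78.Cyc1
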