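import Mathlib
import Cfsg.Agent.Lib.Helper78.Cyc1Defs
import Cfsg.Agent.Lib.Helper78.Cyc1Cor
import Cfsg.Agent.Lib.Helper36.Cyc1LOC
import Cfsg.Agent.Lib.Helper36.Cyc1NISO
import Cfsg.Agent.Lib.Helper56.Cyc1FT
import Cfsg.Agent.Lib.Helper98.Cyc1UNI
import Cfsg.Agent.Lib.Helper98.Cyc1LMU
import Cfsg.Agent.Lib.Helper54.KulsIDL
import Cfsg.Agent.Lib.Helper54.KulsWED
import Cfsg.Agent.Lib.Helper29.BrandtAbs

set_option autoImplicit false

/-! # Ladder CYC1: the abstract core -/

namespace Cfsg.Agent.Lib.Helper78.Cyc1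

open Module
open Cfsg.Agent.Lib.Helper36.Cyc1 Cfsg.Agent.Lib.Helper56.Cyc1 Cfsg.Agent.Lib.Helper98.Cyc1

section
variable {F A : Type*} [Field F] [Ring A] [Algebra F A]

theorem J0_pow_le (J : Ideal A) [J.IsTwoSided] (e : A) (k : ℕ) :
    ∀ a ∈ (J0 F J e) ^ k, a ∈ J ^ k := by
  induction k with
  | zero =>
    intro a _
    rw [Submodule.pow_zero, Ideal.one_eq_top]
    trivial
  | succ k ih =>
    intro a ha
    rw [pow_succ] at ha
    refine Submodule.mul_induction_on ha ?_ ?_
    · intro m hm n hn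
      rw [Submodule.pow_succ]
      exact Ideal.mul_mem_mul (ih m hm) hn.1
    · intro x y hx hy
      exact (J ^ (k + 1)).add_mem hx hy

theorem J0_pow_eq_bot (J : Ideal A) [J.IsTwoSided] (hJ : IsNilpotent J) (e : A) :
    ∃ N : ℕ, (J0 F J e) ^ N = ⊥ := by
  obtain ⟨N, hN⟩ := hJ
  refine ⟨N, ?_⟩
  rw [eq_bot_iff]
  intro a ha
  have := J0_pow_le J e N a ha
  rw [hN] at this
  rw [Submodule.mem_bot]
  simpa using this

theorem corner_decomp {n : ℕ} [NeZero n] (π : A →ₐ[F] Matrix (Fin n) (Fin n) F)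
    (J : Ideal A) (hker : ∀ a, π a = 0 ↔ a ∈ J)
    (e : A) (he : e * e = e) (hπe : π e = Matrix.single 0 0 1) (r : A) :
    e * r * e - π r 0 0 • e ∈ J0 F J e := by
  refine ⟨?_, ?_, ?_⟩
  · rw [← hker, map_sub, map_smul, map_mul, map_mul, hπe, Matrix.single_mul_mul_single,
      Matrix.smul_single]
    simp
  · rw [mul_sub, mul_smul_comm, he, ← mul_assoc, ← mul_assoc, he]
  · rw [sub_mul, smul_mul_assoc, he, mul_assoc, he]

end

/-- algebra with one simple module which is relatively projective with respect to a cyclic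
unipotent subgroup -/
theorem abs_unital_cyc {F A : Type*} [Field F] [IsAlgClosed F] [Ring A] [Algebra F A]
    [FiniteDimensional F A] [Nontrivial A]
    (hl : ∀ f₁ f₂ : A →ₗ[F] F, (∀ x y, f₁ (x * y) = f₁ (y * x)) →
      (∀ x y, f₂ (x * y) = f₂ (y * x)) → (∀ x, IsNilpotent x → f₁ x = 0) →
      (∀ x, IsNilpotent x → f₂ x = 0) → ¬ LinearIndependent F ![f₁, f₂])
    {G : Type*} [Group G] (ρ : G →* A)
    (hspan : Submodule.span F (Set.range ρ) = ⊤) (u : G) (hu : IsNilpotent (ρ u - 1))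
    (c : A) (hc : c * ρ u = ρ u * c)
    (T : Finset G) (hT : ∀ g : G, ∃! t, t ∈ T ∧ t⁻¹ * g ∈ Subgroup.zpowers u)
    (htr : ∑ t ∈ T, ρ t * c * ρ t⁻¹ = 1) :
    ∃ n : ℕ, finrank F A ≤ n ^ 2 * finrank F (Subalgebra.center F A) ∧
      ∀ z : A, (∀ x, z * x = x * z) → z ≠ 0 →
        n ^ 2 ≤ finrank F (LinearMap.range (LinearMap.mulLeft F z)) := by
  have hart : IsArtinianRing A := IsArtinianRing.of_finite F A
  have hJ : IsNilpotent (Ring.jacobson A) := IsSemiprimaryRing.isNilpotent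
  obtain ⟨n, hn, π, hπ, hker⟩ := Cfsg.Agent.Lib.Helper54.Kuls.exists_matrix_quot hl
  obtain ⟨e, x, y, he, hπe, h1⟩ :=
    Cfsg.Agent.Lib.Helper29.Brandt.exists_resolution π hπ _ hJ hker
  refine ⟨n, corner_bound_comm e he x y h1 ?_,
    fun z hzc hz0 => Cfsg.Agent.Lib.Helper54.Kuls.ideal_bound π hπ _ hJ hker z hzc hz0⟩
  set J := Ring.jacobson A with hJdef
  set S := J0 F J e with hS
  have heJ : e ∉ J := by
    intro h
    rw [← hker, hπe] at h
    have := congrFun (congrFun h 0) 0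
    simp at this
  have hScomm : ∀ a ∈ S, ∀ b ∈ S, a * b = b * a := by
    obtain ⟨N, hN⟩ := J0_pow_eq_bot (F := F) J hJ e
    by_cases h : ∃ x ∈ S, S ≤ Submodule.span F {x} ⊔ S * S
    · obtain ⟨x, hx, hx2⟩ := h
      exact comm_of_gen S N hN x hx hx2
    · exfalso
      push Not at h
      obtain ⟨x0, hx0, hx0'⟩ := SetLike.not_le_iff_exists.1 (h 0 S.zero_mem)
      obtain ⟨y0, hy0, hy0'⟩ := SetLike.not_le_iff_exists.1 (h x0 hx0)
      have hx0'' : x0 ∉ S * S := fun hh => hx0' (Submodule.mem_sup_right hh)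
      have hind : ∀ α β : F, α • x0 + β • y0 ∈ S * S → α = 0 ∧ β = 0 := by
        intro α β hαβ
        have hβ : β = 0 := by
          by_contra hβ
          apply hy0'
          have h2 : y0 = (-(β⁻¹ * α)) • x0 + β⁻¹ • (α • x0 + β • y0) := by
            rw [smul_add, smul_smul, smul_smul, inv_mul_cancel₀ hβ, one_smul, neg_smul]
            abel
          rw [h2]
          exact Submodule.add_mem _
            (Submodule.mem_sup_left (Submodule.smul_mem _ _ (Submodule.mem_span_singleton_self _)))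
            (Submodule.mem_sup_right (Submodule.smul_mem _ _ hαβ))
        refine ⟨?_, hβ⟩
        by_contra hα
        apply hx0''
        rw [hβ, zero_smul, add_zero] at hαβ
        have := Submodule.smul_mem _ α⁻¹ hαβ
        rwa [smul_smul, inv_mul_cancel₀ hα, one_smul] at this
      have hmem : ∀ μ : F, ∀ a ∈ Lmu J e x0 y0 μ, a * e ∈ J :=
        fun μ => Lmu_mul_mem J e he x0 y0 hx0 hy0 μ
      refine no_infinite_family ρ hspan u hu c hc T hT htr (κ := F)
        (fun μ => Lmu J e x0 y0 μ) ?_ ?_ ?_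
      · intro μ htop
        apply heJ
        have := hmem μ 1 (by rw [htop]; trivial)
        rwa [one_mul] at this
      · intro μ
        exact local_of π hπ J hJ hker e he hπe _
          (Ideal.subset_span (Set.mem_insert _ _)) (hmem μ)
      · intro μ ν hμν
        exact not_iso π J hker e he hπe x0 y0 hx0 hy0 hind μ ν hμν
  intro a b
  have ha := corner_decomp π J hker e he hπe a
  have hb := corner_decomp π J hker e he hπe b
  set s := e * a * e - π a 0 0 • e with hs
  set s' := e * b * e - π b 0 0 • e with hs'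
  have ea : e * a * e = π a 0 0 • e + s := by rw [hs]; abel
  have eb : e * b * e = π b 0 0 • e + s' := by rw [hs']; abel
  rw [ea, eb]
  have h3 := hScomm s ha s' hb
  simp only [add_mul, mul_add, smul_mul_assoc, mul_smul_comm, he, ha.2.1, ha.2.2, hb.2.1, hb.2.2,
    h3]
  rw [smul_add, smul_add, smul_smul, smul_smul, mul_comm (π a 0 0) (π b 0 0)]
  abel

end Cfsg.Agent.Lib.Helper78.Cyc1
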