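import Mathlib
import Cfsg.Agent.Lib.Helper83.Wat.MAIN
import Cfsg.Agent.Lib.Helper5.FreeCount
import Cfsg.Agent.Lib.Helper5.CycAct
import Cfsg.Agent.S4689

set_option autoImplicit false
set_option linter.unusedSectionVars false
set_option linter.style.haveILetI false
open Cfsg
open Cfsg.Agent.Lib.Helper20 Cfsg.Agent.Lib.Helper81 Cfsg.Agent.Lib.Helper80
open Cfsg.Agent.Lib.Helper80.GA Cfsg.Agent.Lib.Helper5 Cfsg.Agent.Lib.Helper83.Wat

/-! # Ladder CYC1, rung NILC: cyclic defect group, `l(B) = 1`, `k(B) = |P|` implies nilpotent -/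

namespace Cfsg.Agent.Lib.Helper78.Cyc1

variable {p : ℕ} {M : Ideal AlgInt}
variable {G : Type*} [Group G] [Fintype G]

theorem nil_of_card (hM : IsPModular p M) {B : Set (IrrCharacter G)} (hB : IsPBlock M B)
    {P : Subgroup G} (hPD : IsDefectGroup p M B P) (hcyc : IsCyclic P)
    (hl : blockRank p B = 1) (hk : Nat.card B = Nat.card P) : IsNilpotentBlock p M B := by
  classical
  haveI : Fact p.Prime := ⟨hM.1⟩
  obtain ⟨y, hyD, hygen⟩ : ∃ y ∈ P, ∀ x ∈ P, x ∈ Subgroup.zpowers y := by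
    obtain ⟨g, hg⟩ := hcyc.exists_generator
    refine ⟨g, g.2, fun x hx => ?_⟩
    obtain ⟨k, hk⟩ := Subgroup.mem_zpowers_iff.1 (hg ⟨x, hx⟩)
    exact Subgroup.mem_zpowers_iff.2 ⟨k, by simpa using congrArg Subtype.val hk⟩
  have hab : ∀ x ∈ P, ∀ y ∈ P, x * y = y * x := by
    intro a ha b hb
    obtain ⟨i, rfl⟩ := Subgroup.mem_zpowers_iff.1 (hygen a ha)
    obtain ⟨j, rfl⟩ := Subgroup.mem_zpowers_iff.1 (hygen b hb)
    rw [← zpow_add, ← zpow_add, add_comm]
  have hdef := isDef_of_isDefectGroup hM hB hPD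
  obtain ⟨e, hmax⟩ := (isBlk_blkR hM hB).exists_isMaxBP_of_isDef hdef
  have he : IsBP p P e := hmax.1.1
  have hN : P ⊔ Cn P ≤ stabP P e := sup_le (le_stabP he.2.inZ) (Cn_le_stabP he.2.inZ)
  have hblk : IsBlk (P ⊔ Cn P) e :=
    he.isBlk_of_fix le_sup_left le_sup_right (hN.trans (stabP_le_Nn P _))
      ((fixBy_stabP P _).mono hN)
  have hsp := split_sub hM hblk
  have hTp : ∀ S : Subgroup G, S ≤ stabP P e → IsPGroup p S →
      S ≤ Subgroup.centralizer (P : Set G) := fun S hS hSp =>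
    (hmax.pSubgroup_le hsp hS hSp).trans (sup_le (le_Cn_of_abelian hab le_rfl) le_rfl)
  have hfree : ∀ g ∈ stabP P e, ∀ x ∈ P, x ≠ 1 → g * x * g⁻¹ = x → g ∈ Cn P :=
    fun g hg x hx hx1 h => cyc_free hdef.pgroup hcyc (stabP_le_Nn P e) hTp hg hx hx1 h
  rw [isNilpotentBlock_iff hM hB, hmax.abelian_nilB_iff hab hsp]
  -- ranks of the local blocks
  have hell : ∀ u : P, ell hM P e (Cx (u : G)) = 1 := by
    intro u
    by_cases hu1 : (u : G) = 1
    · rw [hu1, ell_one hM hB hmax, hl]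
    · have hR : Subgroup.zpowers (u : G) ≤ P := zpowers_le_of_mem u.2
      have key : ∀ (H : Subgroup G) (_ : H = Cn (Subgroup.zpowers (u : G))),
          ell hM P e H = 1 := by
        intro H hH
        subst hH
        obtain ⟨b, hb⟩ := bel_exists hM he hab hR rfl
        have hle := bel_bple hM he hab hR rfl hb
        have hbp : IsBPOf p (blkR hM B) (Subgroup.zpowers (u : G))
            (bl hM (Cn (Subgroup.zpowers (u : G))) b) := hle.isBPOf_iff.1 hmax.1
        have hQ1 : Subgroup.zpowers (u : G) ≠ ⊥ := by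
          rw [Ne, Subgroup.zpowers_eq_bot]; exact hu1
        have hnil := local_nilpotent_of_free hM hmax hab hfree hQ1 hb.1 hbp
        haveI : Fintype (Cn (Subgroup.zpowers (u : G))) := Fintype.ofFinite _
        rw [ell_eq hM he (le_Cn_of_abelian hab hR) hb]
        exact (Cfsg.Agent.S4689.result p M hM b hnil).1
      exact key _ (Cx_eq (u : G))
  have hgen := genk hM hB hmax hab
  simp only [hell, Nat.cast_one, one_mul] at hgen
  have hgen' : Nat.card (stabP P e) * Nat.card P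
      = ∑ u : P, Nat.card (stabP P e ⊓ Cx (u : G) : Subgroup G) := by
    rw [← hk]
    exact_mod_cast hgen
  have hle : ∀ u : P, Nat.card (stabP P e ⊓ Cx (u : G) : Subgroup G) ≤ Nat.card (stabP P e) :=
    fun u => Subgroup.card_le_of_le inf_le_left
  have hsum : ∑ u : P, Nat.card (stabP P e) = Nat.card (stabP P e) * Nat.card P := by
    rw [Finset.sum_const, Finset.card_univ, smul_eq_mul, mul_comm, ← Nat.card_eq_fintype_card (α := P)]
  have heq := (Finset.sum_eq_sum_iff_of_le (fun u _ => hle u)).1 (by rw [hsum, hgen'])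
  intro t ht
  rw [mem_Cn]
  intro x hx
  have h1 := heq ⟨x, hx⟩ (Finset.mem_univ _)
  have h2 : (stabP P e ⊓ Cx x : Subgroup G) = stabP P e :=
    Subgroup.eq_of_le_of_card_ge inf_le_left (le_of_eq h1.symm)
  have h3 : t ∈ (stabP P e ⊓ Cx x : Subgroup G) := by rw [h2]; exact ht
  exact mem_Cx.1 h3.2

end Cfsg.Agent.Lib.Helper78.Cyc1
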