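import Mathlib
import Cfsg.Agent.Lib.Helper82.BrMain
import Cfsg.Agent.Lib.Helper82.MinDimLink

set_option autoImplicit false
set_option linter.unusedSectionVars false
open Cfsg
open Cfsg.Agent.Lib.Helper81 Cfsg.Agent.Lib.Helper80 Cfsg.Agent.Lib.Helper21 Cfsg.Agent.Lib.Helper82

/-! # Block side of the Külshammer ladder: dimension and centre of a block algebra -/

namespace Cfsg.Agent.Lib.Helper78.Kuls

variable {p : ℕ} {M : Ideal AlgInt}
variable {G : Type*} [Group G] [Fintype G]

/-- lower bound for the dimension of a block algebra -/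
theorem block_dim_ge (hM : IsPModular p M) {B : Set (IrrCharacter G)} (hB : IsPBlock M B) :
    ∑ᶠ χ ∈ B, charDegree (χ : G → ℂ) ^ 2 ≤
      Module.finrank (Kr hM) (LinearMap.range (LinearMap.mulLeft (Kr hM) (blkR hM B))) := by
  classical
  set e := blockCoeff B with he
  set b := blkR hM B with hb
  have heR : RV M e := RV_blockCoeff hM hB
  have h1 := LinearMap.finrank_range_add_finrank_ker (LinearMap.mulLeft (Kr hM) b)
  have h2 : Module.finrank (Kr hM) (GA (Kr hM) G) = Fintype.card G :=
    Module.finrank_fintype_fun_eq_card (Kr hM)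
  have h3 : LinearMap.ker (LinearMap.mulLeft (Kr hM) b) ≤
      LinearMap.range (LinearMap.mulLeft (Kr hM) (red hM (dl - e))) := by
    intro x hx
    rw [LinearMap.mem_ker, LinearMap.mulLeft_apply] at hx
    refine ⟨x, ?_⟩
    rw [LinearMap.mulLeft_apply, red_sub hM (RV_dl hM) heR, red_dl, sub_mul, one_mul]
    have : red hM e * x = 0 := hx
    rw [this, sub_zero]
  have hee : conv e e = e := Helper80.conv_blockCoeff_self _
  have hid : conv (dl - e) (dl - e) = dl - e := by
    rw [conv_sub_left, conv_sub_right, conv_sub_right, conv_dl_left, conv_dl_left, conv_dl_right,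
      hee]
    simp
  have h4 := finrank_range_mulLeft_red_le hM (RV.sub hM (RV_dl hM) heR) hid
  have h5 : Module.finrank ℂ (LinearMap.range (cL (dl - e)))
      + ∑ᶠ χ ∈ B, charDegree (χ : G → ℂ) ^ 2 = Fintype.card G := by
    have h := finrank_range_cL hid
    have h6 : (Fintype.card G : ℂ) * ((dl - e : G → ℂ) 1) = (Fintype.card G : ℂ) -
        ((∑ᶠ χ ∈ B, charDegree (χ : G → ℂ) ^ 2 : ℕ) : ℂ) := by
      rw [Pi.sub_apply, dl_apply, if_pos rfl, he, mul_sub, mul_one, card_mul_blockCoeff_one]
    rw [h6] at h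
    have h7 : ((Module.finrank ℂ (LinearMap.range (cL (dl - e)))
        + ∑ᶠ χ ∈ B, charDegree (χ : G → ℂ) ^ 2 : ℕ) : ℂ) = (Fintype.card G : ℂ) := by
      rw [Nat.cast_add, h]
      ring
    exact_mod_cast h7
  have h6 := Submodule.finrank_mono h3
  omega

theorem conv_blockCoeff_mem_span {B : Set (IrrCharacter G)} {a : G → ℂ}
    (ha : IsClassFunction G a) :
    conv (blockCoeff B) a ∈ Submodule.span ℂ
      ((fun χ : IrrCharacter G => blockCoeff ({χ} : Set (IrrCharacter G))) '' B) := by
  classical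
  have : Finite (IrrCharacter G) := Cfsg.Agent.Lib.Helper20.finite_irrCharacter
  have : Fintype (IrrCharacter G) := Fintype.ofFinite _
  have key : conv (blockCoeff B) a = ∑ χ : IrrCharacter G,
      (if χ ∈ B then omega (χ : G → ℂ) a else 0) • blockCoeff ({χ} : Set (IrrCharacter G)) := by
    have hcl : ∀ s : Finset (IrrCharacter G), IsClassFunction G (∑ χ ∈ s,
        (if χ ∈ B then omega (χ : G → ℂ) a else 0) • blockCoeff ({χ} : Set (IrrCharacter G))) := by
      intro s g h
      simp only [Finset.sum_apply, Pi.smul_apply, blockCoeff_classFunction _ g h]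
    have hom : ∀ (ψ : IrrCharacter G) (s : Finset (IrrCharacter G)), omega (ψ : G → ℂ) (∑ χ ∈ s,
        (if χ ∈ B then omega (χ : G → ℂ) a else 0) • blockCoeff ({χ} : Set (IrrCharacter G)))
        = ∑ χ ∈ s, (if χ ∈ B then omega (χ : G → ℂ) a else 0) * (if ψ = χ then 1 else 0) := by
      intro ψ s
      induction s using Finset.induction_on with
      | empty =>
        simp only [Finset.sum_empty]
        have := omega_smul (ψ : G → ℂ) 0 (0 : G → ℂ)
        simpa using this
      | insert χ s hχ ih =>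
        rw [Finset.sum_insert hχ, Finset.sum_insert hχ, omega_add, ih, omega_smul,
          omega_blockCoeff]
        simp only [Set.mem_singleton_iff]
    apply eq_of_omega_eq (conv_classFunction (blockCoeff_classFunction _) ha) (hcl _)
    intro ψ
    rw [omega_conv ψ.2 _ _ ha, omega_blockCoeff, hom]
    rw [Finset.sum_eq_single ψ]
    · simp
    · intro χ _ hχ
      rw [if_neg (Ne.symm hχ), mul_zero]
    · intro h; exact absurd (Finset.mem_univ _) h
  rw [key]
  refine Submodule.sum_mem _ (fun χ _ => ?_)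
  split_ifs with hχ
  · exact Submodule.smul_mem _ _ (Submodule.subset_span ⟨χ, hχ, rfl⟩)
  · rw [zero_smul]; exact Submodule.zero_mem _

/-- the centre of a block algebra has dimension at most `k(B)` -/
theorem exists_center_sub (hM : IsPModular p M) {B : Set (IrrCharacter G)} (hB : IsPBlock M B) :
    ∃ Zb : Submodule (Kr hM) (GA (Kr hM) G),
      (∀ c : GA (Kr hM) G, (∀ x, c * x = x * c) → blkR hM B * c = c → c ∈ Zb) ∧
      Module.finrank (Kr hM) Zb ≤ Nat.card B := by
  classical
  have : Finite (IrrCharacter G) := Cfsg.Agent.Lib.Helper20.finite_irrCharacter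
  set W := Submodule.span ℂ
    ((fun χ : IrrCharacter G => blockCoeff ({χ} : Set (IrrCharacter G))) '' B) with hW
  let v : {v : G → ℂ // RV M v ∧ v ∈ W} → G → ℂ := fun i => i.1
  refine ⟨Submodule.span (Kr hM) (Set.range (fun i => (red hM (v i) : GA (Kr hM) G))), ?_, ?_⟩
  · intro c hc hbc
    have hcZ : GA.InZ ⊤ c := by
      refine ⟨fun g hg => absurd (Subgroup.mem_top g) hg, fun x _ => ?_⟩
      rw [GA.cj_eq_iff_commute]
      exact (hc _).symm
    obtain ⟨a, hac, haR, rfl⟩ := exists_lift hM hcZ
    have heR : RV M (blockCoeff B) := RV_blockCoeff hM hB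
    apply Submodule.subset_span
    refine ⟨⟨conv (blockCoeff B) a, RV.conv hM heR haR, conv_blockCoeff_mem_span hac⟩, ?_⟩
    show red hM (conv (blockCoeff B) a) = _
    rw [red_conv hM heR haR]
    exact hbc
  · refine (finrank_span_red_le hM v (fun i => i.2.1)).trans ?_
    have h1 : Submodule.span ℂ (Set.range v) ≤ W := by
      rw [Submodule.span_le]
      rintro _ ⟨i, rfl⟩
      exact i.2.2
    refine (Submodule.finrank_mono h1).trans ?_
    have : Fintype B := Fintype.ofFinite _
    have h2 := finrank_range_le_card (R := ℂ)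
      (fun χ : B => blockCoeff ({(χ : IrrCharacter G)} : Set (IrrCharacter G)))
    rw [hW, Set.image_eq_range, Nat.card_eq_fintype_card]
    exact h2

open scoped ComplexConjugate in
theorem isAlgebraic_blockCoeff_singleton (χ : IrrCharacter G) (g : G) :
    IsAlgebraic ℤ (blockCoeff ({χ} : Set (IrrCharacter G)) g) := by
  have hc : IsCharacter G (χ : G → ℂ) := Cfsg.Agent.Lib.Helper4.isCharacter_of_irr χ.2
  have h1 : blockCoeff ({χ} : Set (IrrCharacter G)) g
      = (Nat.card G : ℂ)⁻¹ * ((χ : G → ℂ) 1 * (χ : G → ℂ) g⁻¹) := by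
    unfold blockCoeff
    rw [finsum_mem_singleton, Cfsg.Agent.Lib.Helper20.isCharacter_inv hc]
  rw [h1]
  refine IsAlgebraic.mul (IsAlgebraic.inv ?_) (IsAlgebraic.mul ?_ ?_)
  · exact (isIntegral_natCast (R := ℤ) (B := ℂ) (Nat.card G)).isAlgebraic
  · exact (Cfsg.Agent.Lib.Helper20.isCharacter_isIntegral hc 1).isAlgebraic
  · exact (Cfsg.Agent.Lib.Helper20.isCharacter_isIntegral hc _).isAlgebraic

/-- every character of the block gives a nonzero central element of small rank -/
theorem exists_central_small_of (hM : IsPModular p M)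
    (hsc : ∀ v : G → ℂ, (∀ g, IsAlgebraic ℤ (v g)) → v ≠ 0 →
      ∃ δ : ℂ, RV M (δ • v) ∧ red hM (δ • v) ≠ 0)
    {B : Set (IrrCharacter G)} (hB : IsPBlock M B)
    {χ : IrrCharacter G} (hχ : χ ∈ B) :
    ∃ z : GA (Kr hM) G, (∀ x, z * x = x * z) ∧ blkR hM B * z = z ∧ z ≠ 0 ∧
      Module.finrank (Kr hM) (LinearMap.range (LinearMap.mulLeft (Kr hM) z))
        ≤ charDegree (χ : G → ℂ) ^ 2 := by
  classical
  set e := blockCoeff B with he
  set e₁ := blockCoeff ({χ} : Set (IrrCharacter G)) with he₁
  have heR : RV M e := RV_blockCoeff hM hB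
  have hec : IsClassFunction G e := blockCoeff_classFunction _
  have he₁c : IsClassFunction G e₁ := blockCoeff_classFunction _
  have hne : e₁ ≠ 0 := by
    intro h
    have h1 := blockCoeff_singleton_one χ
    rw [← he₁, h, Pi.zero_apply, mul_zero] at h1
    have h2 : charDegree (χ : G → ℂ) ^ 2 = 0 := by exact_mod_cast h1.symm
    exact charDegree_ne_zero χ (pow_eq_zero_iff (two_ne_zero) |>.1 h2)
  obtain ⟨δ, hR, hz0⟩ := hsc e₁ (isAlgebraic_blockCoeff_singleton χ) hne
  have hb : blkR hM B = red hM e := rfl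
  have hsupp : ∀ x : GA (Kr hM) G, GA.SuppOn ⊤ x := fun x g hg => absurd (Subgroup.mem_top g) hg
  have hee₁ : conv e e₁ = e₁ := by
    rw [conv_comm_of_classFunction e he₁c, conv_blockCoeff_singleton _ hec, he, omega_blockCoeff,
      if_pos hχ, one_smul]
  refine ⟨red hM (δ • e₁), ?_, ?_, hz0, ?_⟩
  · intro x
    exact (GA.commute_of_suppOn_fixBy (hsupp x)
      (inZ_red hM (classFunction_smul δ he₁c)).2).symm
  · rw [hb, ← red_conv hM heR hR, conv_smul_right, hee₁]
  · rw [← finrank_range_cL_singleton χ]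
    apply finrank_range_mulLeft_red_le hM hR
    rw [conv_smul_right, Helper80.conv_blockCoeff_self]

end Cfsg.Agent.Lib.Helper78.Kuls
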