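import Mathlib
import Cfsg.Agent.Lib.Helper80.MTCombine

set_option autoImplicit false
set_option linter.unusedSectionVars false
open Cfsg
open Cfsg.Agent.Lib.Helper81 Cfsg.Agent.Lib.Helper80 Cfsg.Agent.Lib.Helper80.GA

/-! # A block of rank one has only one trace form vanishing on nilpotent elements -/

namespace Cfsg.Agent.Lib.Helper78.Kuls

variable {p : ℕ} {M : Ideal AlgInt}
variable {G : Type*} [Group G] [Fintype G]

theorem indep_vals {k : Type*} [Field k] {ι : Type*} (f : ι → (GA k G →ₗ[k] k))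
    (hli : LinearIndependent k f) : LinearIndependent k (fun i g => f i (of g)) := by
  let Φ : (GA k G →ₗ[k] k) →ₗ[k] (G → k) :=
    LinearMap.pi (fun g => LinearMap.applyₗ (of g : GA k G))
  have hΦ : LinearMap.ker Φ = ⊥ := by
    rw [LinearMap.ker_eq_bot']
    intro φ hφ
    apply LinearMap.ext
    intro a
    rw [eq_sum_of a, map_sum, LinearMap.zero_apply]
    apply Finset.sum_eq_zero
    intro g _
    have h1 : φ (of g) = 0 := congrFun hφ g
    rw [map_smul, h1, smul_zero]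
  exact hli.map' Φ hΦ

theorem not_indep_of_rank_one (hM : IsPModular p M) {B : Set (IrrCharacter G)}
    (hB : IsPBlock M B) (hl : blockRank p B = 1)
    (f₁ f₂ : GA (Kr hM) G →ₗ[Kr hM] Kr hM) (h₁ : ∀ x y, f₁ (x * y) = f₁ (y * x))
    (h₂ : ∀ x y, f₂ (x * y) = f₂ (y * x)) (hb₁ : ∀ x, f₁ (blkR hM B * x) = f₁ x)
    (hb₂ : ∀ x, f₂ (blkR hM B * x) = f₂ x) (hn₁ : ∀ x, IsNilpotent x → f₁ x = 0)
    (hn₂ : ∀ x, IsNilpotent x → f₂ x = 0) : ¬ LinearIndependent (Kr hM) ![f₁, f₂] := by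
  classical
  intro hli
  have : Fact p.Prime := ⟨hM.1⟩
  obtain ⟨f, hfdef⟩ : ∃ f : Fin 2 → (GA (Kr hM) G →ₗ[Kr hM] Kr hM), f = ![f₁, f₂] := ⟨_, rfl⟩
  rw [← hfdef] at hli
  have hf : ∀ i, (∀ x y, f i (x * y) = f i (y * x)) ∧ (∀ x, f i (blkR hM B * x) = f i x) ∧
      (∀ x, IsNilpotent x → f i x = 0) := by
    intro i
    rw [hfdef]
    fin_cases i
    · exact ⟨h₁, hb₁, hn₁⟩
    · exact ⟨h₂, hb₂, hn₂⟩
  obtain ⟨t, ht⟩ : ∃ t : Fin 2 → G → Kr hM, t = fun i g => f i (of g) := ⟨_, rfl⟩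
  have hval : ∀ i (a : GA (Kr hM) G), f i a = ∑ g, a g * t i g := by
    intro i a
    conv_lhs => rw [eq_sum_of a]
    rw [map_sum, ht]
    exact Finset.sum_congr rfl (fun g _ => by rw [map_smul, smul_eq_mul])
  have hlit : LinearIndependent (Kr hM) t := by
    rw [ht]
    exact indep_vals f hli
  have h2 := card_le_blockRank hM hB t hlit ?_ ?_ ?_
  · rw [hl, Fintype.card_fin] at h2
    omega
  · intro i x g
    rw [ht]
    show f i (of (x * g * x⁻¹)) = f i (of g)
    rw [← of_mul_of, ← of_mul_of, (hf i).1, ← mul_assoc, of_inv_mul_of, one_mul]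
  · intro i u s n hc hu
    rw [ht]
    show f i (of (u * s)) = f i (of s)
    have hnil : IsNilpotent (((of u : GA (Kr hM) G) - 1) * of s) := by
      have h1 : ((of u : GA (Kr hM) G) - 1) ^ p ^ n = 0 :=
        of_sub_one_pow (by rw [← hu]; exact pow_orderOf_eq_one u)
      have hcomm : Commute ((of u : GA (Kr hM) G) - 1) (of s) := by
        apply Commute.sub_left _ (Commute.one_left _)
        show of u * of s = of s * of u
        rw [of_mul_of, of_mul_of, hc.eq]
      exact ⟨p ^ n, by rw [hcomm.mul_pow, h1, zero_mul]⟩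
    have h0 := (hf i).2.2 _ hnil
    rw [sub_mul, one_mul, of_mul_of, map_sub, sub_eq_zero] at h0
    exact h0
  · intro i g
    have h1 := (hf i).2.1 (of g)
    rw [hval i (blkR hM B * of g)] at h1
    have h3 : t i g = f i (of g) := by rw [ht]
    rw [h3, ← h1]
    refine Fintype.sum_equiv (Equiv.mulRight g) _ _ (fun h => ?_)
    rw [Equiv.coe_mulRight, mul_of_apply, mul_inv_cancel_right]

end Cfsg.Agent.Lib.Helper78.Kuls
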