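import Mathlib
import Cfsg.Agent.Lib.Helper78.KulsLoc
import Cfsg.Agent.Lib.Helper78.KulsBlk
import Cfsg.Agent.Lib.Helper78.KulsD4
import Cfsg.Agent.Lib.Helper54.KulsIDL
import Cfsg.Agent.Lib.Helper54.KulsWED
import Cfsg.Agent.Lib.Helper54.KulsREL
import Cfsg.Agent.Lib.Helper57.KulsCOR
import Cfsg.Agent.Lib.Helper57.KulsVAL
import Cfsg.Agent.Lib.Helper64.KulsSCA
import Cfsg.Agent.Lib.Helper64.KulsNUM

set_option autoImplicit false
set_option linter.unusedSectionVars false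
open Cfsg
open Cfsg.Agent.Lib.Helper81 Cfsg.Agent.Lib.Helper80 Cfsg.Agent.Lib.Helper21 Cfsg.Agent.Lib.Helper82

/-! # Külshammer: a block with `l(B) = 1` and `k(B) ≤ 4` has all degrees equal -/

namespace Cfsg.Agent.Lib.Helper78.Kuls

open Module

/-- symmetric algebra with one simple module and centre of dimension at most four -/
theorem abs_unital {F A : Type*} [Field F] [IsAlgClosed F] [Ring A] [Algebra F A]
    [FiniteDimensional F A] [Nontrivial A]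
    (t : A →ₗ[F] F) (ht : ∀ x y, t (x * y) = t (y * x))
    (hnd : ∀ x, (∀ y, t (x * y) = 0) → x = 0)
    (hl : ∀ f₁ f₂ : A →ₗ[F] F, (∀ x y, f₁ (x * y) = f₁ (y * x)) →
      (∀ x y, f₂ (x * y) = f₂ (y * x)) → (∀ x, IsNilpotent x → f₁ x = 0) →
      (∀ x, IsNilpotent x → f₂ x = 0) → ¬ LinearIndependent F ![f₁, f₂])
    (hz : finrank F (Subalgebra.center F A) ≤ 4) :
    ∃ n : ℕ, finrank F A ≤ n ^ 2 * finrank F (Subalgebra.center F A) ∧
      ∀ z : A, (∀ x, z * x = x * z) → z ≠ 0 →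
        n ^ 2 ≤ finrank F (LinearMap.range (LinearMap.mulLeft F z)) := by
  have hart : IsArtinianRing A := IsArtinianRing.of_finite F A
  have hJ : IsNilpotent (Ring.jacobson A) := IsSemiprimaryRing.isNilpotent
  obtain ⟨n, hn, π, hπ, hker⟩ := Cfsg.Agent.Lib.Helper54.Kuls.exists_matrix_quot hl
  exact ⟨n, Cfsg.Agent.Lib.Helper57.Kuls.corner_bound t ht hnd π hπ _ hJ hker hz,
    fun z hzc hz0 => Cfsg.Agent.Lib.Helper54.Kuls.ideal_bound π hπ _ hJ hker z hzc hz0⟩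

variable {p : ℕ} {M : Ideal AlgInt}
variable {G : Type*} [Group G] [Fintype G]

/-- all degrees are equal -/
theorem degrees_eq_of (hM : IsPModular p M)
    (hsc : ∀ v : G → ℂ, (∀ g, IsAlgebraic ℤ (v g)) → v ≠ 0 →
      ∃ δ : ℂ, RV M (δ • v) ∧ red hM (δ • v) ≠ 0)
    {B : Set (IrrCharacter G)} (hB : IsPBlock M B)
    (hl : blockRank p B = 1) (hk : Nat.card B ≤ 4) :
    ∃ n : ℕ, ∀ χ ∈ B, charDegree (χ : G → ℂ) = n := by
  classical
  have : Finite (IrrCharacter G) := Cfsg.Agent.Lib.Helper20.finite_irrCharacter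
  obtain ⟨Zb, hZb, hZk⟩ := exists_center_sub hM hB
  have hbc : ∀ x, blkR hM B * x = x * blkR hM B := by
    intro x
    exact (GA.commute_of_suppOn_fixBy (H := ⊤)
      (fun g hg => absurd (Subgroup.mem_top g) hg) (blkR_inZ hM _).2).symm
  obtain ⟨n, hn1, hn2⟩ := Cfsg.Agent.Lib.Helper54.Kuls.abs_relative_of
    (fun A _ _ _ _ t ht hnd hl hz => abs_unital t ht hnd hl hz)
    (gaTr (Kr hM) G) gaTr_comm gaTr_nondeg (blkR hM B)
    (blkR_idem hM hB) hbc (blkR_ne_zero hM hB)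
    (fun f₁ f₂ h₁ h₂ hb₁ hb₂ hn₁ hn₂ => not_indep_of_rank_one hM hB hl f₁ f₂ h₁ h₂ hb₁ hb₂ hn₁ hn₂)
    Zb hZb (hZk.trans hk)
  have hge : ∀ χ ∈ B, n ^ 2 ≤ charDegree (χ : G → ℂ) ^ 2 := by
    intro χ hχ
    obtain ⟨z, hzc, hbz, hz0, hzr⟩ := exists_central_small_of hM hsc hB hχ
    exact (hn2 z hzc hbz hz0).trans hzr
  have hsum : ∑ᶠ χ ∈ B, charDegree (χ : G → ℂ) ^ 2 ≤ n ^ 2 * Nat.card B :=
    (block_dim_ge hM hB).trans (hn1.trans (Nat.mul_le_mul_left _ hZk))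
  refine ⟨n, fun χ hχ => ?_⟩
  rw [finsum_mem_eq_finite_toFinset_sum _ (Set.toFinite B)] at hsum
  have hcard : Nat.card B = (Set.toFinite B).toFinset.card := by
    rw [Nat.card_coe_set_eq, Set.ncard_eq_toFinset_card B (Set.toFinite B)]
  rw [hcard, mul_comm, ← smul_eq_mul, ← Finset.sum_const] at hsum
  have hall : ∀ ψ ∈ (Set.toFinite B).toFinset,
      n ^ 2 ≤ charDegree ((ψ : IrrCharacter G) : G → ℂ) ^ 2 :=
    fun ψ hψ => hge ψ ((Set.Finite.mem_toFinset _).1 hψ)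
  have heq := (Finset.sum_eq_sum_iff_of_le hall).1 (le_antisymm (Finset.sum_le_sum hall) hsum)
  have h1 := heq χ ((Set.Finite.mem_toFinset _).2 hχ)
  exact (Nat.pow_left_injective (n := 2) (by norm_num) h1).symm

/-- **Külshammer**: in a block with `l(B) = 1` and `k(B) ≤ 4` all degrees are equal -/
theorem degrees_eq (hM : IsPModular p M) {B : Set (IrrCharacter G)} (hB : IsPBlock M B)
    (hl : blockRank p B = 1) (hk : Nat.card B ≤ 4) :
    ∃ n : ℕ, ∀ χ ∈ B, charDegree (χ : G → ℂ) = n :=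
  degrees_eq_of hM (fun v hv h0 => Cfsg.Agent.Lib.Helper64.Kuls.exists_scaling hM
    (fun _ hx => Cfsg.Agent.Lib.Helper57.Kuls.memLocalRing_or_inv hM hx) v hv h0) hB hl hk

/-- **Külshammer**: a block with `l(B) = 1` and `k(B) ≤ 4` has `k(B) = |D|` -/
theorem card_eq_pow_defect (hM : IsPModular p M) {B : Set (IrrCharacter G)} (hB : IsPBlock M B)
    (hl : blockRank p B = 1) (hk : Nat.card B ≤ 4) : Nat.card B = p ^ blockDefect p B := by
  obtain ⟨n, hn⟩ := degrees_eq hM hB hl hk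
  exact Cfsg.Agent.Lib.Helper64.Kuls.card_eq_of_degrees hM hB hl hn

end Cfsg.Agent.Lib.Helper78.Kuls
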