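import Mathlib
import Cfsg.Agent.Lib.Helper78.Cyc1Core
import Cfsg.Agent.Lib.Helper78.Cyc1Nilc
import Cfsg.Agent.Lib.Helper66.Cyc1TRD
import Cfsg.Agent.Lib.Helper78.KulsMain

set_option autoImplicit false
set_option linter.unusedSectionVars false
open Cfsg
open Cfsg.Agent.Lib.Helper81 Cfsg.Agent.Lib.Helper80 Cfsg.Agent.Lib.Helper21 Cfsg.Agent.Lib.Helper82

/-! # Ladder CYC1: a block with cyclic defect group and `l(B) = 1` has all degrees equal -/

namespace Cfsg.Agent.Lib.Helper78.Cyc1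

open Module Cfsg.Agent.Lib.Helper78.Kuls
open Cfsg.Agent.Lib.Helper66.Cyc1

section ga
variable {k : Type*} {G : Type*} [Field k] [Group G] [Fintype G]

/-- `of` as a monoid homomorphism -/
noncomputable def ofHom (k : Type*) (G : Type*) [Field k] [Group G] [Fintype G] : G →* GA k G where
  toFun := GA.of
  map_one' := GA.of_one
  map_mul' x y := (GA.of_mul_of x y).symm

theorem span_range_ofHom : Submodule.span k (Set.range (ofHom k G)) = ⊤ := by
  rw [eq_top_iff]
  intro a _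
  rw [GA.eq_sum_of a]
  exact Submodule.sum_mem _ fun x _ => Submodule.smul_mem _ _ (Submodule.subset_span ⟨x, rfl⟩)

theorem isNilpotent_of_sub_one {A : Type*} [Ring A] [Algebra k A] [Nontrivial A] (p : ℕ)
    [Fact p.Prime] [CharP k p] (ρ : G →* A) (u : G) (a : ℕ) (hu : u ^ (p ^ a) = 1) :
    IsNilpotent (ρ u - 1) := by
  have : CharP A p := charP_of_injective_algebraMap (FaithfulSMul.algebraMap_injective k A) p
  refine ⟨p ^ a, ?_⟩
  have := sub_pow_char_pow_of_commute (p := p) (n := a) (Commute.one_right (ρ u))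
  rw [this, one_pow, ← map_pow, hu, map_one, sub_self]

end ga

variable {p : ℕ} {M : Ideal AlgInt}
variable {G : Type*} [Group G] [Fintype G]

/-- all degrees are equal -/
theorem degrees_eq_cyc (hM : IsPModular p M)
    {B : Set (IrrCharacter G)} (hB : IsPBlock M B)
    (hl : blockRank p B = 1) {P : Subgroup G} (hPD : IsDefectGroup p M B P) (hcyc : IsCyclic P) :
    ∃ n : ℕ, ∀ χ ∈ B, charDegree (χ : G → ℂ) = n := by
  classical
  have : Fact p.Prime := ⟨hM.1⟩
  have : Finite (IrrCharacter G) := Cfsg.Agent.Lib.Helper20.finite_irrCharacter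
  have hsc : ∀ v : G → ℂ, (∀ g, IsAlgebraic ℤ (v g)) → v ≠ 0 →
      ∃ δ : ℂ, RV M (δ • v) ∧ red hM (δ • v) ≠ 0 :=
    fun v hv h0 => Cfsg.Agent.Lib.Helper64.Kuls.exists_scaling hM
      (fun _ hx => Cfsg.Agent.Lib.Helper57.Kuls.memLocalRing_or_inv hM hx) v hv h0
  obtain ⟨Zb, hZb, hZk⟩ := exists_center_sub hM hB
  have hbc : ∀ x, blkR hM B * x = x * blkR hM B := by
    intro x
    exact (GA.commute_of_suppOn_fixBy (H := ⊤)
      (fun g hg => absurd (Subgroup.mem_top g) hg) (blkR_inZ hM _).2).symm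
  -- the generator
  obtain ⟨u, huP, hugen⟩ : ∃ y ∈ P, ∀ x ∈ P, x ∈ Subgroup.zpowers y := by
    obtain ⟨g, hg⟩ := hcyc.exists_generator
    refine ⟨g, g.2, fun x hx => ?_⟩
    obtain ⟨k, hk⟩ := Subgroup.mem_zpowers_iff.1 (hg ⟨x, hx⟩)
    exact Subgroup.mem_zpowers_iff.2 ⟨k, by simpa using congrArg Subtype.val hk⟩
  have hPu : P = Subgroup.zpowers u :=
    le_antisymm hugen (by rw [Subgroup.zpowers_le]; exact huP)
  have hdef := isDef_of_isDefectGroup hM hB hPD
  obtain ⟨a, hua⟩ : ∃ a : ℕ, u ^ (p ^ a) = 1 := by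
    obtain ⟨a, ha⟩ := hdef.pgroup ⟨u, huP⟩
    exact ⟨a, by simpa using congrArg Subtype.val ha⟩
  obtain ⟨T, c, hT, hcfix, htr⟩ := exists_trace (p := p) (blkR_inZ hM B).2 hdef.zd
  obtain ⟨n, hn1, hn2⟩ := abs_relative_mk (blkR hM B)
    (blkR_idem hM hB) hbc (blkR_ne_zero hM hB)
    (fun A _ _ _ _ mk hmk hmkb hlA => by
      refine abs_unital_cyc hlA ((mk : GA (Kr hM) G →* A).comp (ofHom (Kr hM) G)) ?_ u
        (isNilpotent_of_sub_one (k := Kr hM) p _ u a hua) (mk c) ?_ T (by rw [← hPu]; exact hT) ?_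
      · rw [eq_top_iff]
        intro y _
        obtain ⟨x, rfl⟩ := hmk y
        have hx : x ∈ Submodule.span (Kr hM) (Set.range (ofHom (Kr hM) G)) := by
          rw [span_range_ofHom]; trivial
        have := Submodule.mem_map_of_mem (f := mk.toLinearMap) hx
        rw [Submodule.map_span] at this
        refine Submodule.span_mono ?_ this
        rintro _ ⟨_, ⟨g, rfl⟩, rfl⟩
        exact ⟨g, rfl⟩
      · change mk c * mk (GA.of u) = mk (GA.of u) * mk c
        rw [← map_mul, ← map_mul, (GA.cj_eq_iff_commute u c).1 (hcfix u huP)]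
      · change ∑ t ∈ T, mk (GA.of t) * mk c * mk (GA.of t⁻¹) = 1
        simp only [← map_mul, ← map_sum]
        rw [htr, hmkb])
    (fun f₁ f₂ h₁ h₂ hb₁ hb₂ hn₁ hn₂ => not_indep_of_rank_one hM hB hl f₁ f₂ h₁ h₂ hb₁ hb₂ hn₁ hn₂)
    Zb hZb
  have hge : ∀ χ ∈ B, n ^ 2 ≤ charDegree (χ : G → ℂ) ^ 2 := by
    intro χ hχ
    obtain ⟨z, hzc, hbz, hz0, hzr⟩ := exists_central_small_of hM hsc hB hχ
    exact (hn2 z hzc hbz hz0).trans hzr
  have hsum : ∑ᶠ χ ∈ B, charDegree (χ : G → ℂ) ^ 2 ≤ n ^ 2 * Nat.card B :=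
    (block_dim_ge hM hB).trans (hn1.trans (Nat.mul_le_mul_left _ hZk))
  refine ⟨n, fun χ hχ => ?_⟩
  rw [finsum_mem_eq_finite_toFinset_sum _ (Set.toFinite B)] at hsum
  have hcard : Nat.card B = (Set.toFinite B).toFinset.card := by
    rw [Nat.card_coe_set_eq, Set.ncard_eq_toFinset_card B (Set.toFinite B)]
  rw [hcard, mul_comm, ← smul_eq_mul, ← Finset.sum_const] at hsum
  have hall : ∀ ψ ∈ (Set.toFinite B).toFinset,
      n ^ 2 ≤ charDegree ((ψ : IrrCharacter G) : G → ℂ) ^ 2 :=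
    fun ψ hψ => hge ψ ((Set.Finite.mem_toFinset _).1 hψ)
  have heq := (Finset.sum_eq_sum_iff_of_le hall).1 (le_antisymm (Finset.sum_le_sum hall) hsum)
  have h1 := heq χ ((Set.Finite.mem_toFinset _).2 hχ)
  exact (Nat.pow_left_injective (n := 2) (by norm_num) h1).symm

/-- a block with cyclic defect group and `l(B) = 1` is nilpotent -/
theorem nilpotent_of_rank_one (hM : IsPModular p M)
    {B : Set (IrrCharacter G)} (hB : IsPBlock M B)
    (hl : blockRank p B = 1) {P : Subgroup G} (hPD : IsDefectGroup p M B P) (hcyc : IsCyclic P) :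
    IsNilpotentBlock p M B := by
  have : Fact p.Prime := ⟨hM.1⟩
  obtain ⟨n, hn⟩ := degrees_eq_cyc hM hB hl hPD hcyc
  have h1 := Cfsg.Agent.Lib.Helper64.Kuls.card_eq_of_degrees hM hB hl hn
  have h2 := Cfsg.Agent.Lib.Helper21.card_defectGroup hM B hB P hPD
  exact nil_of_card hM hB hPD hcyc hl (h1.trans h2.symm)

end Cfsg.Agent.Lib.Helper78.Cyc1
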