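import Cfsg.Agent.Lib.Helper78.DefectOne
import Cfsg.Agent.S4499

set_option autoImplicit false
open Cfsg
open scoped ComplexConjugate
open Cfsg.Agent.Lib.Helper20 Cfsg.Agent.Lib.Helper81

namespace Cfsg.Agent.Lib.Helper78

variable {G : Type*} [Group G] [Fintype G] {M : Ideal AlgInt}

/-- In a block of defect two every character has height zero. -/
theorem nuDeg_eq_minDeg_of_defect_two {p : ℕ} (hM : IsPModular p M) {B : Set (IrrCharacter G)}
    (hB : IsPBlock M B) (hd : blockDefect p B = 2) {v : IrrCharacter G} (hv : v ∈ B) :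
    nuDeg p v = minDeg p B := by
  have hp := hM.1
  have : Fact p.Prime := ⟨hp⟩
  have hadd := blockDefect_add (p := p) (B := B) ⟨v, hv⟩
  have h1 := minDeg_le (p := p) hv
  have h2 := nuDeg_le_card (p := p) v
  by_contra hne
  obtain ⟨χ₀, hχ₀, hmin⟩ := exists_minDeg (p := p) (isPBlock_nonempty hM hB)
  have hpa : p ∣ Nat.card G := by
    apply Nat.dvd_of_factorization_pos
    omega
  have h3 : p ^ ((Nat.card G).factorization p - 1) ∣ charDegree (v : G → ℂ) := by
    apply (hp.pow_dvd_iff_le_factorization (charDegree_ne_zero v)).2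
    show _ ≤ nuDeg p v
    omega
  have h4 := Cfsg.Agent.S4499.result p M hM hpa B hB v hv h3 χ₀ hχ₀
  have h5 : (Nat.card G).factorization p - 1 ≤ nuDeg p χ₀ :=
    (hp.pow_dvd_iff_le_factorization (charDegree_ne_zero χ₀)).1 h4
  omega

theorem not_dvd_kC_of_min {p : ℕ} (hM : IsPModular p M) {B : Set (IrrCharacter G)}
    (hB : IsPBlock M B) {u v : IrrCharacter G} (hu : u ∈ B) (hv : v ∈ B)
    (hminu : nuDeg p u = minDeg p B) (hminv : nuDeg p v = minDeg p B) :
    ¬ (p : ℤ) ∣ kC p B u v := by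
  intro hd
  have h0 : blockHeight p B (u : G → ℂ) = 0 := (blockHeight_eq_zero_iff hu).2 hminu
  obtain ⟨hne, hν⟩ := nC_of_height_zero hM hB hu hv h0
  have h1 := kC_mul hM u hv
  obtain ⟨t, ht⟩ := hd
  have h2 : ((p ^ (minDeg p B + 1) : ℕ) : ℤ) ∣ nC p u v := by
    refine ⟨t, ?_⟩
    rw [← h1, ht]; push_cast; ring
  rw [Int.natCast_dvd, hM.1.pow_dvd_iff_le_factorization (Int.natAbs_ne_zero.2 hne)] at h2
  omega

/-- **A `2`-block of defect two has exactly four irreducible characters.** -/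
theorem card_eq_four_of_defect_two (hM : IsPModular 2 M) {B : Set (IrrCharacter G)}
    (hB : IsPBlock M B) (hd : blockDefect 2 B = 2) : Nat.card B = 4 := by
  classical
  have : Finite (IrrCharacter G) := Helper20.finite_irrCharacter
  have : Fintype (IrrCharacter G) := Fintype.ofFinite _
  have : Fact (Nat.Prime 2) := ⟨Nat.prime_two⟩
  have hp := Nat.prime_two
  obtain ⟨u, hu⟩ := isPBlock_nonempty hM hB
  have hmin := nuDeg_eq_minDeg_of_defect_two hM hB hd hu
  have h0 : blockHeight 2 B (u : G → ℂ) = 0 := (blockHeight_eq_zero_iff hu).2 hmin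
  have hadd := blockDefect_add (p := 2) (B := B) ⟨u, hu⟩
  have hsum := sum_kC_sq hM hB hu
  rw [hd] at hsum
  set k := kC 2 B u u with hk
  have hkmul := kC_mul hM u hu
  have hkpos : 0 < k := by
    have h1 := nC_self_pos hp u
    rw [← hkmul] at h1
    have h2 : (0 : ℤ) < ((2 ^ minDeg 2 B : ℕ) : ℤ) := by positivity
    exact (mul_pos_iff_of_pos_right h2).1 h1
  set s := Finset.univ.filter (fun v : IrrCharacter G => v ∈ B) with hs
  have hus : u ∈ s := Finset.mem_filter.2 ⟨Finset.mem_univ _, hu⟩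
  have hsum' : k ^ 2 + ∑ v ∈ s.erase u, kC 2 B u v ^ 2 = 4 * k := by
    have h2 : ((2 : ℕ) : ℤ) ^ 2 * k = 4 * k := by norm_num
    rw [← h2, ← hsum, ← Finset.sum_filter, Finset.add_sum_erase s (fun v => kC 2 B u v ^ 2) hus]
  have hnn : 0 ≤ ∑ v ∈ s.erase u, kC 2 B u v ^ 2 := Finset.sum_nonneg (fun _ _ => sq_nonneg _)
  have hkodd : ¬ (2 : ℤ) ∣ k := not_dvd_kC_self hM hB hu hmin
  have hk4 : k ≤ 4 := by nlinarith
  have hk13 : k = 1 ∨ k = 3 := by omega
  have hsum3 : ∑ v ∈ s.erase u, kC 2 B u v ^ 2 = 3 := by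
    rcases hk13 with h | h <;> rw [h] at hsum' <;> linarith
  have hone : ∀ v ∈ s.erase u, kC 2 B u v ^ 2 = 1 := by
    intro v hv
    have hvB : v ∈ B := (Finset.mem_filter.1 (Finset.mem_of_mem_erase hv)).2
    have h1 : ¬ (2 : ℤ) ∣ kC 2 B u v :=
      not_dvd_kC_of_min hM hB hu hvB hmin (nuDeg_eq_minDeg_of_defect_two hM hB hd hvB)
    have h2 : kC 2 B u v ^ 2 ≤ 3 := by
      rw [← hsum3]
      exact Finset.single_le_sum (f := fun v => kC 2 B u v ^ 2) (fun _ _ => sq_nonneg _) hv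
    have h3 : kC 2 B u v < 2 := by nlinarith
    have h4 : -2 < kC 2 B u v := by nlinarith
    have h5 : kC 2 B u v = 1 ∨ kC 2 B u v = -1 := by omega
    rcases h5 with h | h <;> rw [h] <;> norm_num
  have hcard : (s.erase u).card = 3 := by
    rw [Finset.sum_congr rfl hone] at hsum3
    simp only [Finset.sum_const, nsmul_eq_mul, mul_one] at hsum3
    exact_mod_cast hsum3
  rw [Finset.card_erase_of_mem hus] at hcard
  have hspos : 0 < s.card := Finset.card_pos.2 ⟨u, hus⟩
  rw [Nat.card_eq_fintype_card, Fintype.card_subtype]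
  show s.card = 4
  omega

end Cfsg.Agent.Lib.Helper78
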