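import Cfsg.Agent.Lib.Helper81.ClassSum
import Cfsg.Agent.Lib.Helper81.BlockProj
import Cfsg.Agent.Lib.Helper81.Contrib
import Cfsg.Agent.Lib.Helper21.AvgChar
import Cfsg.Agent.Lib.Helper21.KeyLemma

set_option autoImplicit false
open Cfsg
open scoped ComplexConjugate
open Cfsg.Agent.Lib.Helper20 Cfsg.Agent.Lib.Helper81

namespace Cfsg.Agent.Lib.Helper78

variable {G : Type*} [Group G] [Fintype G] {p : ℕ} {M M' : Ideal AlgInt}

/-- The idempotent coefficients of a block relative to `M'` are `|G|_{p'}⁻¹` times an algebraic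
integer. -/
theorem exists_isIntegral_blockCoeff (hM' : IsPModular p M') (B : Set (IrrCharacter G))
    (hB : IsPBlock M' B) (g : G) :
    ∃ α : ℂ, IsIntegral ℤ α ∧
      blockCoeff B g = α / ((Nat.card G / p ^ (Nat.card G).factorization p : ℕ) : ℂ) := by
  classical
  have : Finite (IrrCharacter G) := Helper20.finite_irrCharacter
  have : Fintype (IrrCharacter G) := Fintype.ofFinite _
  have hp := hM'.1
  have : Fact p.Prime := ⟨hp⟩
  by_cases hg : p ∣ orderOf g
  · refine ⟨0, isIntegral_zero, ?_⟩
    rw [Cfsg.Agent.Lib.Helper21.blockCoeff_eq_zero_of_singular hM' B hB hg, zero_div]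
  obtain ⟨P'⟩ : Nonempty (Sylow p G) := inferInstance
  obtain ⟨P, hPdef⟩ : ∃ P : Subgroup G, P = (P' : Subgroup G) := ⟨_, rfl⟩
  have hPcard : Nat.card P = p ^ (Nat.card G).factorization p := by
    rw [hPdef]; exact P'.card_eq_multiplicity
  have hPp : IsPGroup p P := by rw [hPdef]; exact P'.2
  set a := (Nat.card G).factorization p with ha
  set m := Nat.card G / p ^ a with hm
  have hcard : p ^ a * m = Nat.card G := Nat.ordProj_mul_ordCompl_eq_self _ _
  have hG : (Nat.card G : ℂ) ≠ 0 := Helper20.card_ne_zero_complex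
  have hP0 : (Nat.card P : ℂ) ≠ 0 := by exact_mod_cast Nat.card_pos.ne'
  have hm0 : (m : ℂ) ≠ 0 := by
    intro h
    apply hG
    rw [← hcard]; push_cast; rw [h, mul_zero]
  -- the average over `P`
  set α : ℂ := ∑ χ : IrrCharacter G, (if χ ∈ B then
    conj ((χ : G → ℂ) g) * ((Nat.card P : ℂ)⁻¹ * ∑ u : P, (χ : G → ℂ) ((u : G) * 1)) else 0) with hα
  refine ⟨α, ?_, ?_⟩
  · apply IsIntegral.sum
    intro χ _
    split_ifs
    · apply IsIntegral.mul
      · have h1 := isCharacter_isIntegral (isCharacter_of_isIrrCharacter χ.2) g⁻¹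
        rwa [isCharacter_inv (isCharacter_of_isIrrCharacter χ.2)] at h1
      · exact Cfsg.Agent.Lib.Helper21.isIntegral_avg_char (isCharacter_of_isIrrCharacter χ.2)
          P 1 (fun u _ => by rw [mul_one, one_mul])
    · exact isIntegral_zero
  · -- `∑_{u ∈ P} bS u g = bS 1 g`
    have h1 : ∑ u : P, bS B (u : G) g = bS B 1 g := by
      rw [Finset.sum_eq_single (1 : P)]
      · rfl
      · intro u _ hu
        apply (bS_regular_singular hM' B hB hg _).2
        have hu1 : (u : G) ≠ 1 := fun h => hu (Subtype.ext h)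
        obtain ⟨k, hk⟩ := hPp.exists_orderOf_eq_pow u
        rw [← Subgroup.orderOf_coe] at hk
        rw [hk]
        have hk0 : k ≠ 0 := by
          intro h
          rw [h, pow_zero, orderOf_eq_one_iff] at hk
          exact hu1 hk
        exact dvd_pow_self p hk0
      · intro h; exact absurd (Finset.mem_univ _) h
    have h2 : (Nat.card P : ℂ) * α = bS B 1 g := by
      rw [← h1, hα, Finset.mul_sum]
      simp only [bS, finsum_mem_irr]
      rw [Finset.sum_comm]
      apply Finset.sum_congr rfl; intro χ _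
      split_ifs
      · rw [← Finset.sum_mul]
        simp only [mul_one]
        field_simp
      · simp
    show (Nat.card G : ℂ)⁻¹ * bS B 1 g = _
    rw [← h2, hPcard, ← hcard]
    push_cast
    have hpa : ((p : ℂ) ^ a) ≠ 0 := pow_ne_zero _ (by exact_mod_cast hp.ne_zero)
    field_simp

/-- The idempotent of a block relative to `M'` is locally integral at every maximal ideal `M` over
the same prime. -/
theorem blockCoeff_memLocalRing_of_isPBlock (hM : IsPModular p M) (hM' : IsPModular p M')
    (B : Set (IrrCharacter G)) (hB : IsPBlock M' B) (g : G) : MemLocalRing M (blockCoeff B g) := by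
  obtain ⟨α, hα, h⟩ := exists_isIntegral_blockCoeff hM' B hB g
  rw [h]
  apply memLocalRing_div hM (memLocalRing_of_isIntegral hM hα) (memLocalRing_natCast hM _)
  rw [memLocalIdeal_natCast_iff hM]
  exact Nat.not_dvd_ordCompl hM.1 Nat.card_pos.ne'

/-- **Blocks do not depend on the maximal ideal.** -/
theorem sameBlock_indep (hM : IsPModular p M) (hM' : IsPModular p M') {χ ψ : IrrCharacter G}
    (h : SameBlock M (χ : G → ℂ) (ψ : G → ℂ)) : SameBlock M' (χ : G → ℂ) (ψ : G → ℂ) := by
  have h1 : ψ ∈ blockOf M' (χ : G → ℂ) :=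
    union_of_blocks hM (blockOf M' (χ : G → ℂ))
      (blockCoeff_memLocalRing_of_isPBlock hM hM' _ ⟨χ, rfl⟩) (mem_blockOf_self hM' χ) h
  exact h1

theorem blockOf_indep (hM : IsPModular p M) (hM' : IsPModular p M') (χ : IrrCharacter G) :
    blockOf M (χ : G → ℂ) = blockOf M' (χ : G → ℂ) := by
  ext ψ
  exact ⟨fun h => sameBlock_indep hM hM' h, fun h => sameBlock_indep hM' hM h⟩

theorem isPBlock_indep (hM : IsPModular p M) (hM' : IsPModular p M') {B : Set (IrrCharacter G)}
    (hB : IsPBlock M B) : IsPBlock M' B := by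
  obtain ⟨χ, rfl⟩ := hB
  exact ⟨χ, blockOf_indep hM hM' χ⟩

end Cfsg.Agent.Lib.Helper78
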