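import Mathlib
import Cfsg.Agent.Lib.Helper21.ExtFirstMain
import Cfsg.Agent.Lib.Helper21.DefectCard
import Cfsg.Agent.Lib.Helper21.Quot
import Cfsg.Agent.Lib.Helper80.DefOne

/-!
# Blocks of defect one: existence of the local data
-/

set_option autoImplicit false
set_option linter.unusedSectionVars false
open Cfsg

namespace Cfsg.Agent.Lib.Helper78

open Cfsg.Agent.Lib.Helper21

/-- conjugation by an element of the normalizer preserves the centralizer -/
theorem conj_mem_centralizer_of_mem_normalizer {G : Type*} [Group G] (P : Subgroup G) {h c : G}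
    (hh : h ∈ Subgroup.normalizer (P : Set G)) (hc : c ∈ Subgroup.centralizer (P : Set G)) :
    h * c * h⁻¹ ∈ Subgroup.centralizer (P : Set G) := by
  rw [Subgroup.mem_centralizer_iff] at hc ⊢
  intro y hy
  have h1 : h⁻¹ * y * h ∈ P := by
    have := (Subgroup.mem_normalizer_iff.1 (inv_mem hh) y).1 hy
    simpa using this
  have h2 := hc _ h1
  calc y * (h * c * h⁻¹) = h * ((h⁻¹ * y * h) * c) * h⁻¹ := by group
    _ = h * (c * (h⁻¹ * y * h)) * h⁻¹ := by rw [h2]
    _ = h * c * h⁻¹ * y := by group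

/-- the stabilizer in `N_G(P)` of a function on `C_G(P)` -/
theorem exists_stab {G : Type*} [Group G] (P : Subgroup G)
    (θ : Subgroup.centralizer (P : Set G) → ℂ) :
    ∃ T : Subgroup G, ∀ g : G, g ∈ T ↔ (g ∈ Subgroup.normalizer (P : Set G) ∧
      ∀ c c' : Subgroup.centralizer (P : Set G), (c' : G) = g * c * g⁻¹ → θ c' = θ c) := by
  refine ⟨{ carrier := {g | g ∈ Subgroup.normalizer (P : Set G) ∧
      ∀ c c' : Subgroup.centralizer (P : Set G), (c' : G) = g * c * g⁻¹ → θ c' = θ c}
            mul_mem' := ?_, one_mem' := ?_, inv_mem' := ?_ }, fun g => Iff.rfl⟩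
  · rintro g h ⟨hg, hg'⟩ ⟨hh, hh'⟩
    refine ⟨mul_mem hg hh, ?_⟩
    intro c c' hc
    have h1 := hh' c ⟨_, conj_mem_centralizer_of_mem_normalizer P hh c.2⟩ rfl
    have h2 := hg' ⟨_, conj_mem_centralizer_of_mem_normalizer P hh c.2⟩ c' (by
      rw [hc]; simp [mul_assoc])
    rw [h2, h1]
  · refine ⟨one_mem _, ?_⟩
    intro c c' hc
    have : c' = c := Subtype.ext (by rw [hc]; simp)
    rw [this]
  · rintro g ⟨hg, hg'⟩
    refine ⟨inv_mem hg, ?_⟩
    intro c c' hc
    exact (hg' c' c (by rw [hc]; simp [mul_assoc])).symm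

/-- the local data of a block of positive defect when `p ∥ |G|` -/
theorem exists_defone_setup {G : Type*} [Group G] [Finite G] (p : ℕ) [Fact p.Prime]
    (M : Ideal AlgInt) (hM : IsPModular p M) (hsq : ¬ p ^ 2 ∣ Nat.card G)
    (B : Set (IrrCharacter G)) (hB : IsPBlock M B) (hd : 0 < blockDefect p B) :
    ∃ P : Sylow p G, Nat.card P = p ∧ IsDefectGroup p M B P ∧
      ∃ b : Set (IrrCharacter (Subgroup.centralizer ((P : Subgroup G) : Set G))),
        IsInducedBlock M (Subgroup.centralizer ((P : Subgroup G) : Set G)) b B ∧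
        ∃ θ ∈ b, ∀ x : Subgroup.centralizer ((P : Subgroup G) : Set G),
          (x : G) ∈ (P : Subgroup G) →
          (θ : Subgroup.centralizer ((P : Subgroup G) : Set G) → ℂ) x
            = (θ : Subgroup.centralizer ((P : Subgroup G) : Set G) → ℂ) 1 := by
  have hp : p.Prime := Fact.out
  have : Fintype G := Fintype.ofFinite G
  obtain ⟨D, hD⟩ := exists_isDefectGroup hM B hB
  have hc := card_defectGroup hM B hB D hD
  have hdvd : p ^ blockDefect p B ∣ Nat.card G := by
    rw [← hc]; exact Subgroup.card_subgroup_dvd_card _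
  have hd1 : blockDefect p B = 1 := by
    by_contra hne
    exact hsq ((pow_dvd_pow p (by omega : 2 ≤ blockDefect p B)).trans hdvd)
  rw [hd1, pow_one] at hc hdvd
  have hfac : (Nat.card G).factorization p = 1 := by
    apply le_antisymm
    · by_contra hlt
      exact hsq ((hp.pow_dvd_iff_le_factorization Nat.card_pos.ne').2 (by omega))
    · exact (hp.dvd_iff_one_le_factorization Nat.card_pos.ne').1 hdvd
  obtain ⟨P, hPD⟩ : ∃ P : Sylow p G, (P : Subgroup G) = D :=
    ⟨Sylow.ofCard D (by rw [hc, hfac, pow_one]), rfl⟩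
  have hP : Nat.card (P : Subgroup G) = p := by rw [hPD]; exact hc
  have hBP : IsDefectGroup p M B (P : Subgroup G) := by rw [hPD]; exact hD
  have hPC : (P : Subgroup G) ≤ Subgroup.centralizer ((P : Subgroup G) : Set G) :=
    Cfsg.Agent.Lib.Helper80.le_Cn_of_prime_card hP
  obtain ⟨b, -, hind⟩ := exists_block_of_defectGroup hM hPC le_rfl
    (Subgroup.centralizer_le_normalizer _) B hB hBP
  refine ⟨P, hP, hBP, b, hind, ?_⟩
  have hnorm : ((P : Subgroup G).subgroupOf
      (Subgroup.centralizer ((P : Subgroup G) : Set G))).Normal := by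
    constructor
    intro n hn g
    rw [Subgroup.mem_subgroupOf] at hn ⊢
    have h1 := (Subgroup.mem_centralizer_iff.1 g.2) _ hn
    have h2 : ((g * n * g⁻¹ : Subgroup.centralizer ((P : Subgroup G) : Set G)) : G) = n := by
      push_cast
      rw [← h1]; group
    rw [h2]; exact hn
  have hpg : IsPGroup p ((P : Subgroup G).subgroupOf
      (Subgroup.centralizer ((P : Subgroup G) : Set G))) :=
    P.2.comap_of_injective _ (Subgroup.subtype_injective _)
  obtain ⟨χ, θ, hθ, hθχ⟩ := exists_inflation_mem_block hM _ hpg b hind.1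
  refine ⟨θ, hθ, ?_⟩
  intro x hx
  rw [hθχ]
  simp only [Function.comp_apply]
  have h1 : (QuotientGroup.mk x : Subgroup.centralizer ((P : Subgroup G) : Set G) ⧸
      (P : Subgroup G).subgroupOf (Subgroup.centralizer ((P : Subgroup G) : Set G))) = 1 :=
    (QuotientGroup.eq_one_iff x).2 (Subgroup.mem_subgroupOf.2 hx)
  rw [h1]
  rfl

end Cfsg.Agent.Lib.Helper78
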