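import Cfsg.Agent.Lib.Helper78.DimBlock

set_option autoImplicit false
open Cfsg
open scoped ComplexConjugate
open Cfsg.Agent.Lib.Helper20 Cfsg.Agent.Lib.Helper81

namespace Cfsg.Agent.Lib.Helper78

variable {G : Type*} [Group G] [Fintype G] {M : Ideal AlgInt}

/-- In a block of defect one every character has height zero. -/
theorem nuDeg_eq_minDeg_of_defect_one {p : ℕ} (hM : IsPModular p M) {B : Set (IrrCharacter G)}
    (hB : IsPBlock M B) (hd : blockDefect p B = 1) {v : IrrCharacter G} (hv : v ∈ B) :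
    nuDeg p v = minDeg p B := by
  have hadd := blockDefect_add (p := p) (B := B) ⟨v, hv⟩
  have h1 := minDeg_le (p := p) hv
  have h2 := nuDeg_le_card (p := p) v
  by_contra hne
  have h3 : nuDeg p v = (Nat.card G).factorization p := by omega
  have h4 := block_eq_singleton_of_nuDeg hM hB hv h3
  obtain ⟨χ₀, hχ₀, hmin⟩ := exists_minDeg (p := p) (isPBlock_nonempty hM hB)
  rw [h4, Set.mem_singleton_iff] at hχ₀
  rw [hχ₀] at hmin
  exact hne hmin

theorem sq_eq_one_iff_of_side_conditions {z : ℤ} (h : z ^ 2 = 1) : z = 1 ∨ z = -1 := by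
  have h1 : (z - 1) * (z + 1) = 0 := by ring_nf; rw [h]; ring
  rcases mul_eq_zero.1 h1 with h2 | h2
  · left; omega
  · right; omega

/-- **`2`-blocks of defect one.** -/
theorem defect_one_structure (hM : IsPModular 2 M) {B : Set (IrrCharacter G)}
    (hB : IsPBlock M B) (hd : blockDefect 2 B = 1) {u : IrrCharacter G} (hu : u ∈ B) :
    ∃ v ∈ B, v ≠ u ∧ (∀ w ∈ B, w = u ∨ w = v) ∧
      (∀ g : G, ¬ 2 ∣ orderOf g → (u : G → ℂ) g = (v : G → ℂ) g) ∧
      (∀ g : G, 2 ∣ orderOf g → (u : G → ℂ) g = - (v : G → ℂ) g) := by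
  classical
  have : Finite (IrrCharacter G) := Helper20.finite_irrCharacter
  have : Fintype (IrrCharacter G) := Fintype.ofFinite _
  have : Fact (Nat.Prime 2) := ⟨Nat.prime_two⟩
  have hp := Nat.prime_two
  have hmin := nuDeg_eq_minDeg_of_defect_one hM hB hd hu
  have h0 : blockHeight 2 B (u : G → ℂ) = 0 := (blockHeight_eq_zero_iff hu).2 hmin
  have hadd := blockDefect_add (p := 2) (B := B) ⟨u, hu⟩
  have hsum := sum_kC_sq hM hB hu
  rw [hd, pow_one] at hsum
  set k := kC 2 B u u with hk
  have hkmul := kC_mul hM u hu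
  have hkpos : 0 < k := by
    have h1 := nC_self_pos hp u
    rw [← hkmul] at h1
    have h2 : (0 : ℤ) < ((2 ^ minDeg 2 B : ℕ) : ℤ) := by positivity
    exact (mul_pos_iff_of_pos_right h2).1 h1
  set s := Finset.univ.filter (fun v : IrrCharacter G => v ∈ B) with hs
  have hus : u ∈ s := Finset.mem_filter.2 ⟨Finset.mem_univ _, hu⟩
  have hsum' : k ^ 2 + ∑ v ∈ s.erase u, kC 2 B u v ^ 2 = 2 * k := by
    have h2 : ((2 : ℕ) : ℤ) * k = 2 * k := by norm_num
    rw [← h2, ← hsum, ← Finset.sum_filter, Finset.add_sum_erase s (fun v => kC 2 B u v ^ 2) hus]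
  have hnn : 0 ≤ ∑ v ∈ s.erase u, kC 2 B u v ^ 2 := Finset.sum_nonneg (fun _ _ => sq_nonneg _)
  have hk2 : k ≠ 2 := by
    intro hk2
    have h1 : ((2 ^ (Nat.card G).factorization 2 : ℕ) : ℤ) ∣ nC 2 u u := by
      rw [← hkmul, ← hk, hk2, ← hadd, hd]
      exact ⟨1, by push_cast; ring⟩
    have h2 := Cfsg.Agent.S0928.result 2 u (fun g hg => vanish_of_pow_dvd_nC hp u h1 (by rw [hg]))
    have h3 : nuDeg 2 u = (Nat.card G).factorization 2 := h2
    omega
  have hk1 : k = 1 := by
    have h1 : k ≤ 2 := by nlinarith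
    omega
  have hsum1 : ∑ v ∈ s.erase u, kC 2 B u v ^ 2 = 1 := by
    rw [hk1] at hsum'; linarith
  have hge : ∀ v ∈ s.erase u, (1 : ℤ) ≤ kC 2 B u v ^ 2 := by
    intro v hv
    have hvB : v ∈ B := (Finset.mem_filter.1 (Finset.mem_of_mem_erase hv)).2
    have := (kC_of_height_zero hM hB hu hvB h0).2
    have : 0 < kC 2 B u v ^ 2 := by positivity
    omega
  have hcard : (s.erase u).card = 1 := by
    have h1 : ((s.erase u).card : ℤ) ≤ 1 := by
      rw [← hsum1, Finset.card_eq_sum_ones]
      push_cast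
      exact Finset.sum_le_sum hge
    have h2 : (s.erase u).card ≠ 0 := by
      intro h
      rw [Finset.card_eq_zero] at h
      rw [h] at hsum1
      simp at hsum1
    have h3 : (s.erase u).card ≤ 1 := by exact_mod_cast h1
    omega
  obtain ⟨v, hv⟩ := Finset.card_eq_one.1 hcard
  have hvs : v ∈ s.erase u := by rw [hv]; exact Finset.mem_singleton_self v
  have hvB : v ∈ B := (Finset.mem_filter.1 (Finset.mem_of_mem_erase hvs)).2
  have hvu : v ≠ u := Finset.ne_of_mem_erase hvs
  have hkv : kC 2 B u v ^ 2 = 1 := by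
    rw [hv, Finset.sum_singleton] at hsum1; exact hsum1
  have hexp : ∀ g : G, (2 : ℂ) * pRegularPart 2 (u : G → ℂ) g
      = (u : G → ℂ) g + (kC 2 B u v : ℂ) * (v : G → ℂ) g := by
    intro g
    have h1 := pow_mul_pRegularPart_eq hM hB hu g
    rw [hd, pow_one, ← Finset.sum_filter, ← Finset.add_sum_erase s _ hus, hv,
      Finset.sum_singleton, ← hk, hk1] at h1
    push_cast at h1
    rw [h1]; ring
  have hreg1 : IsPRegular 2 (1 : G) := by
    simp only [IsPRegular, orderOf_one, Nat.dvd_one]; decide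
  have hkv1 : kC 2 B u v = 1 := by
    rcases sq_eq_one_iff_of_side_conditions hkv with h | h
    · exact h
    · exfalso
      have h1 := hexp 1
      rw [pRegularPart_apply_of_reg hreg1, h, irr_one_eq, irr_one_eq] at h1
      have h2 : ((charDegree (u : G → ℂ) : ℕ) : ℂ) + ((charDegree (v : G → ℂ) : ℕ) : ℂ) = 0 := by
        push_cast at h1
        linear_combination h1
      have h3 : charDegree (u : G → ℂ) + charDegree (v : G → ℂ) = 0 := by exact_mod_cast h2
      have := charDegree_ne_zero u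
      omega
  refine ⟨v, hvB, hvu, ?_, ?_, ?_⟩
  · intro w hw
    by_cases hwu : w = u
    · exact Or.inl hwu
    · right
      have : w ∈ s.erase u :=
        Finset.mem_erase.2 ⟨hwu, Finset.mem_filter.2 ⟨Finset.mem_univ _, hw⟩⟩
      rw [hv, Finset.mem_singleton] at this
      exact this
  · intro g hg
    have h1 := hexp g
    rw [pRegularPart_apply_of_reg (show IsPRegular 2 g from hg), hkv1] at h1
    push_cast at h1
    linear_combination h1
  · intro g hg
    have h1 := hexp g
    rw [pRegularPart_apply_of_sing (show ¬ IsPRegular 2 g from fun h => h hg), hkv1] at h1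
    push_cast at h1
    linear_combination -h1

end Cfsg.Agent.Lib.Helper78
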