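import Cfsg.Agent.Lib.Helper78.DefectOne
import Cfsg.Agent.Lib.Helper21.DefectBasic
import Cfsg.Agent.Lib.Helper21.DefectCard
import Cfsg.Agent.S0917
import Cfsg.Agent.S0920

set_option autoImplicit false
open Cfsg
open scoped ComplexConjugate
open Cfsg.Agent.Lib.Helper20 Cfsg.Agent.Lib.Helper81 Cfsg.Agent.Lib.Helper21

namespace Cfsg.Agent.Lib.Helper78

variable {G : Type*} [Group G] [Fintype G] {M : Ideal AlgInt}

theorem mem_zpowers_of_orderOf_two {x h : G} (hx : orderOf x = 2) (hh : h ∈ Subgroup.zpowers x) :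
    h = 1 ∨ h = x := by
  classical
  rw [mem_zpowers_iff_mem_range_orderOf, hx] at hh
  simp only [Finset.mem_image, Finset.mem_range] at hh
  obtain ⟨k, hk, rfl⟩ := hh
  interval_cases k
  · left; simp
  · right; simp

theorem centralizer_eq_normalizer_of_orderOf_two {x : G} (hx : orderOf x = 2) :
    Subgroup.centralizer ({x} : Set G) = Subgroup.normalizer (Subgroup.zpowers x : Set G) := by
  ext g
  rw [Subgroup.mem_centralizer_singleton_iff, Subgroup.mem_normalizer_iff]
  constructor
  · intro hg h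
    have hc : ∀ h ∈ Subgroup.zpowers x, g * h * g⁻¹ = h := by
      intro h hh
      rcases mem_zpowers_of_orderOf_two hx hh with rfl | rfl
      · simp
      · rw [hg]; simp
    constructor
    · intro hh
      have := hc h hh
      show g * h * g⁻¹ ∈ Subgroup.zpowers x
      rw [this]; exact hh
    · intro hh
      have hh' : g * h * g⁻¹ ∈ Subgroup.zpowers x := hh
      have h2 : g⁻¹ * (g * h * g⁻¹) * g = h := by group
      have h3 : g * (g * h * g⁻¹) * g⁻¹ = g * h * g⁻¹ := hc _ hh'
      have h4 : g * h * g⁻¹ = h := by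
        have h5 : g⁻¹ * (g * (g * h * g⁻¹) * g⁻¹) * g = g⁻¹ * (g * h * g⁻¹) * g := by rw [h3]
        rw [h2] at h5
        have h6 : g⁻¹ * (g * (g * h * g⁻¹) * g⁻¹) * g = g * h * g⁻¹ := by group
        rw [← h6, h5]
      show h ∈ Subgroup.zpowers x
      rw [← h4]; exact hh'
  · intro hg
    have h1 : g * x * g⁻¹ ∈ Subgroup.zpowers x := (hg x).1 (Subgroup.mem_zpowers x)
    rcases mem_zpowers_of_orderOf_two hx h1 with h | h
    · exfalso
      have : x = 1 := by
        have h2 : x = g⁻¹ * (g * x * g⁻¹) * g := by group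
        rw [h2, h]; group
      rw [this, orderOf_one] at hx
      omega
    · rw [mul_inv_eq_iff_eq_mul] at h
      exact h

/-- A block of `H`, `x ∈ H ≤ N_G(⟨x⟩)`, inducing a block with defect group `⟨x⟩` of order two has
defect group `⟨x⟩`. -/
theorem isDefectGroup_of_induced (hM : IsPModular 2 M) {x : G} (hx : orderOf x = 2)
    {B : Set (IrrCharacter G)} (hB : IsPBlock M B)
    (hBD : IsDefectGroup 2 M B (Subgroup.zpowers x)) (H : Subgroup G) (hxH : x ∈ H)
    (hnorm : H ≤ Subgroup.normalizer (Subgroup.zpowers x : Set G))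
    (b : Set (IrrCharacter H)) (hind : IsInducedBlock M H b B) :
    IsDefectGroup 2 M b ((Subgroup.zpowers x).subgroupOf H) := by
  classical
  have : Fact (Nat.Prime 2) := ⟨Nat.prime_two⟩
  have : Fintype H := Fintype.ofFinite H
  have hb := hind.1
  obtain ⟨g, hg⟩ := exists_defectClass hM b hb
  obtain ⟨S⟩ : Nonempty (Sylow 2 (Subgroup.centralizer ({g} : Set H))) := inferInstance
  set D' : Subgroup H := (S : Subgroup (Subgroup.centralizer ({g} : Set H))).map
    (Subgroup.centralizer ({g} : Set H)).subtype with hD'def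
  have hD' : IsDefectGroup 2 M b D' := ⟨g, hg, S, rfl⟩
  obtain ⟨E, hE, hle⟩ := Cfsg.Agent.S0917.result 2 M hM H b hb B hB hind D' hD'
  have hcE : Nat.card E = 2 := by
    rw [card_defectGroup hM B hB E hE, ← card_defectGroup hM B hB _ hBD, Nat.card_zpowers, hx]
  have hcD' : Nat.card D' ≤ 2 := by
    have h1 : Nat.card (D'.map H.subtype) = Nat.card D' :=
      Subgroup.card_map_of_injective H.subtype_injective
    rw [← hcE, ← h1]
    exact Subgroup.card_le_of_le hle
  have hzH : Subgroup.zpowers x ≤ H := by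
    rw [Subgroup.zpowers_le]; exact hxH
  have hN : ((Subgroup.zpowers x).subgroupOf H).Normal :=
    (Subgroup.normal_subgroupOf_iff_le_normalizer hzH).2 hnorm
  have hcN : Nat.card ((Subgroup.zpowers x).subgroupOf H) = 2 := by
    rw [Nat.card_congr (Subgroup.subgroupOfEquivOfLe hzH).toEquiv, Nat.card_zpowers, hx]
  have hNp : IsPGroup 2 ((Subgroup.zpowers x).subgroupOf H) :=
    IsPGroup.of_card (n := 1) (by rw [hcN]; norm_num)
  have hle2 := normal_pSubgroup_le_defectGroup hM b hb D' hD' _ hNp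
  have heq : (Subgroup.zpowers x).subgroupOf H = D' :=
    Subgroup.eq_of_le_of_card_ge hle2 (by rw [hcN]; exact hcD')
  rw [heq]; exact hD'

/-- Uniqueness of the block of `C_G(x)` inducing a block with defect group `⟨x⟩` of order two. -/
theorem induced_block_unique (hM : IsPModular 2 M) {x : G} (hx : orderOf x = 2)
    {B : Set (IrrCharacter G)} (hB : IsPBlock M B)
    (hBD : IsDefectGroup 2 M B (Subgroup.zpowers x)) (H : Subgroup G)
    (hH : H = Subgroup.normalizer (Subgroup.zpowers x : Set G))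
    (b₁ b₂ : Set (IrrCharacter H)) (h₁ : IsInducedBlock M H b₁ B)
    (h₂ : IsInducedBlock M H b₂ B) : b₁ = b₂ := by
  subst hH
  have : Fact (Nat.Prime 2) := ⟨Nat.prime_two⟩
  have hDp : IsPGroup 2 (Subgroup.zpowers x) :=
    IsPGroup.of_card (n := 1) (by rw [Nat.card_zpowers, hx]; norm_num)
  have hxN : x ∈ Subgroup.normalizer (Subgroup.zpowers x : Set G) :=
    Subgroup.le_normalizer (Subgroup.mem_zpowers x)
  have key := (Cfsg.Agent.S0920.result 2 M hM (Subgroup.zpowers x) hDp).2 B hB hBD
  exact key.unique ⟨h₁.1, isDefectGroup_of_induced hM hx hB hBD _ hxN le_rfl b₁ h₁, h₁⟩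
    ⟨h₂.1, isDefectGroup_of_induced hM hx hB hBD _ hxN le_rfl b₂ h₂, h₂⟩

end Cfsg.Agent.Lib.Helper78
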