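import Mathlib
import Cfsg.Agent.Lib.Helper78.HeightPair
import Cfsg.Agent.Lib.Helper80.GAStab
import Cfsg.Agent.Lib.Helper29.HKTrans

set_option autoImplicit false
set_option linter.unusedSectionVars false
set_option linter.style.haveILetI false
open Cfsg
open Cfsg.Agent.Lib.Helper20 Cfsg.Agent.Lib.Helper81 Cfsg.Agent.Lib.Helper80
open Cfsg.Agent.Lib.Helper80.GA Cfsg.Agent.Lib.Helper5

/-! A root of a block `B` in `D C_G(D)` gives a maximal Brauer pair; its stabiliser. -/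

namespace Cfsg.Agent.Lib.Helper78

variable {p : ℕ} [Fact p.Prime] {M : Ideal AlgInt} (hM : IsPModular p M)
  {G : Type*} [Group G] [Fintype G]

theorem isMaxBP_of_induced_sup {B : Set (IrrCharacter G)} (hB : IsPBlock M B) {D : Subgroup G}
    (hBD : IsDefectGroup p M B D) {H : Subgroup G} (hH : H = D ⊔ Cn D)
    {b : Set (IrrCharacter H)} (hind : IsInducedBlock M H b B) :
    IsMaxBP p (blkR hM B) D (bl hM H b) := by
  have hdef : IsDef p ⊤ (blkR hM B) D := isDef_of_isDefectGroup hM hB hBD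
  have hDp := hdef.pgroup
  have hDH : D ≤ H := hH ▸ le_sup_left
  have hCH : Cn D ≤ H := hH ▸ le_sup_right
  have hHN : H ≤ Nn D := by rw [hH]; exact sup_le Subgroup.le_normalizer (Cn_le_Nn D)
  have hblk : IsBlk H (bl hM H b) := isBlk_bl hM H hind.1
  have hbr : br D (bl hM H b) = bl hM H b := br_eq_self_of_idem hDp hDH hHN hblk.inZ hblk.idem
  have hblkC : IsBlk (Cn D) (bl hM H b) :=
    { inZ := ⟨by rw [← hbr]; exact br_suppOn D _, hblk.inZ.2.mono hCH⟩
      idem := hblk.idem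
      ne_zero := hblk.ne_zero
      prim := fun e' he' hee' => by
        apply hblk.prim e' ⟨he'.1.mono hCH, ?_⟩ hee'
        apply (fixBy_stabP D e').mono
        rw [hH]
        exact sup_le (le_stabP he') (Cn_le_stabP he') }
  have hpair : IsBPOf p (blkR hM B) D (bl hM H b) :=
    ⟨⟨hDp, hblkC⟩, isBlk_blkR hM hB,
      (Cfsg.Agent.Lib.Helper29.Kn.isInducedBlock_iff hM hDp hDH hCH hHN hind.1 hB).1 hind⟩
  exact hpair.isMaxBP_of_isDef hdef

theorem stab_of_mem_stabP {D H : Subgroup G} (hH : H = D ⊔ Cn D) {b : Set (IrrCharacter H)}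
    (hb : IsPBlock M b) {t : G} (ht : t ∈ stabP D (bl hM H b)) :
    t ∈ Nn D ∧ ∀ θ ∈ b, ∀ θ' : IrrCharacter H,
      (∀ h h' : H, (h' : G) = t * h * t⁻¹ → (θ' : H → ℂ) h' = (θ : H → ℂ) h) → θ' ∈ b := by
  refine ⟨ht.1, fun θ hθ θ' hrel => ?_⟩
  have htN : t ∈ Subgroup.normalizer (H : Set G) := by rw [hH]; exact Nn_le_Nn_sup_Cn D ht.1
  have hK := mem_iff_of_mem_normalizer htN
  have h1 : bl hM H (cjSet H H t b) = bl hM H b := by rw [bl_cjSet hM hK, ht.2]
  have h2 := bl_injective hM H (isPBlock_cjSet hK hb) hb h1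
  rw [← h2]
  exact ⟨θ, hθ, hrel⟩

omit [Fintype G] in
theorem card_orbit_le_relIndex [Finite G] (T H S : Subgroup G) (hST : S ≤ T) (z : G)
    (hz : ∀ h ∈ H, h * z = z * h) :
    Nat.card {z' : G // ∃ t ∈ S, z' = t * z * t⁻¹} ≤ H.relIndex T := by
  rw [Subgroup.relIndex, Subgroup.index]
  have hex : ∀ z' : {z' : G // ∃ t ∈ S, z' = t * z * t⁻¹}, ∃ t ∈ S, (z' : G) = t * z * t⁻¹ :=
    fun z' => z'.2
  choose t ht hzt using hex
  apply Nat.card_le_card_of_injective
    (fun z' => (QuotientGroup.mk (⟨t z', hST (ht z')⟩ : T) : T ⧸ H.subgroupOf T))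
  intro a c hac
  have h1 := QuotientGroup.eq.1 hac
  rw [Subgroup.mem_subgroupOf] at h1
  simp only [Subgroup.coe_mul, Subgroup.coe_inv] at h1
  have h2 := hz _ h1
  apply Subtype.ext
  rw [hzt a, hzt c]
  calc t a * z * (t a)⁻¹ = t a * (z * ((t a)⁻¹ * t c)) * (t c)⁻¹ := by group
    _ = t a * ((t a)⁻¹ * t c * z) * (t c)⁻¹ := by rw [h2]
    _ = t c * z * (t c)⁻¹ := by group

end Cfsg.Agent.Lib.Helper78
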