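import Mathlib
import Cfsg.Agent.Lib.Helper2.PResidual

set_option autoImplicit false
open Cfsg

namespace Cfsg.Agent.Lib.Helper78

variable {G : Type*} [Group G] [Finite G]

theorem isKleinFour_of_card_of_exp {P : Type*} [Group P] (hP : Nat.card P = 4)
    (hexp : ∀ x : P, x * x = 1) : IsKleinFour P where
  card_four := hP
  exponent_two := by
    have h1 : Monoid.exponent P ∣ 2 := Monoid.exponent_dvd_of_forall_pow_eq_one
      (fun x => by rw [pow_two]; exact hexp x)
    rcases (Nat.dvd_prime Nat.prime_two).1 h1 with h | h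
    · exfalso
      have : Subsingleton P := Monoid.exp_eq_one_iff.1 h
      have : Nat.card P = 1 := Nat.card_unique
      omega
    · exact h

/-- A `2`-element normalizing a Sylow `2`-subgroup lies in it. -/
theorem mem_sylow_of_pow_two_of_normalizer (P : Sylow 2 G) {g : G} {k : ℕ}
    (hg : g ^ (2 ^ k) = 1) (hn : g ∈ Subgroup.normalizer ((P : Subgroup G) : Set G)) :
    g ∈ (P : Subgroup G) := by
  have : Fact (Nat.Prime 2) := ⟨Nat.prime_two⟩
  have hQ : IsPGroup 2 (Subgroup.zpowers g) := by
    obtain ⟨j, -, hj⟩ := (Nat.dvd_prime_pow Nat.prime_two).1 (orderOf_dvd_of_pow_eq_one hg)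
    apply IsPGroup.of_card (n := j)
    rw [Nat.card_zpowers, hj]
  have h1 := hQ.inf_normalizer_sylow P
  have h2 : g ∈ Subgroup.zpowers g ⊓ Subgroup.normalizer (P : Set G) :=
    ⟨Subgroup.mem_zpowers g, hn⟩
  rw [h1] at h2
  exact h2.2

/-- An element normalizing a Klein four Sylow `2`-subgroup and centralizing one of its
involutions centralizes it. -/
theorem commute_of_normalizer_klein (P : Sylow 2 G) (hP : Nat.card P = 4)
    (hexp : ∀ x : P, x * x = 1) {t : G} (ht : t ∈ (P : Subgroup G)) (ht1 : t ≠ 1) {g : G}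
    (hn : g ∈ Subgroup.normalizer ((P : Subgroup G) : Set G)) (hgt : Commute g t)
    {a : G} (ha : a ∈ (P : Subgroup G)) : Commute g a := by
  have hK : IsKleinFour P := isKleinFour_of_card_of_exp hP hexp
  have hcomm : ∀ x ∈ (P : Subgroup G), ∀ y ∈ (P : Subgroup G), Commute x y := by
    intro x hx y hy
    have := (IsKleinFour.isMulCommutative (G := P)).is_comm.comm ⟨x, hx⟩ ⟨y, hy⟩
    exact congrArg Subtype.val this
  have hsq : ∀ x ∈ (P : Subgroup G), x * x = 1 := fun x hx =>
    congrArg Subtype.val (hexp ⟨x, hx⟩)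
  -- step 1
  have hconj : ∀ x ∈ (P : Subgroup G), g * x * g⁻¹ ∈ (P : Subgroup G) := fun x hx =>
    (Subgroup.mem_normalizer_iff.1 hn x).1 hx
  have hgt' : g * t * g⁻¹ = t := by rw [hgt.eq]; group
  have h1 : Commute (g ^ 2) a := by
    by_cases ha1 : a = 1
    · rw [ha1]; exact Commute.one_right _
    by_cases hat : a = t
    · rw [hat]; exact hgt.pow_left 2
    set b := g * a * g⁻¹ with hb
    have hbP : b ∈ (P : Subgroup G) := hconj a ha
    by_cases hba : b = a
    · have : Commute g a := by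
        show g * a = a * g
        calc g * a = (g * a * g⁻¹) * g := by group
          _ = a * g := by rw [← hb, hba]
      exact this.pow_left 2
    have hb1 : b ≠ 1 := by
      intro h
      apply ha1
      have : a = g⁻¹ * b * g := by rw [hb]; group
      rw [this, h]; group
    have hbt : b ≠ t := by
      intro h
      apply hat
      have h2 : a = g⁻¹ * b * g := by rw [hb]; group
      rw [h2, h]
      calc g⁻¹ * t * g = g⁻¹ * (g * t * g⁻¹) * g := by rw [hgt']
        _ = t := by group
    have h3 : (⟨b, hbP⟩ : P) = ⟨t, ht⟩ * ⟨a, ha⟩ :=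
      IsKleinFour.eq_mul_of_ne_all (x := (⟨t, ht⟩ : P)) (y := ⟨a, ha⟩) (z := ⟨b, hbP⟩)
        (fun h => ht1 (congrArg Subtype.val h)) (fun h => ha1 (congrArg Subtype.val h))
        (fun h => hat (congrArg Subtype.val h).symm) (fun h => hb1 (congrArg Subtype.val h))
        (fun h => hbt (congrArg Subtype.val h)) (fun h => hba (congrArg Subtype.val h))
    have h4 : b = t * a := congrArg Subtype.val h3
    show g ^ 2 * a = a * g ^ 2
    have h5 : g * b * g⁻¹ = a := by
      calc g * b * g⁻¹ = (g * t * g⁻¹) * (g * a * g⁻¹) := by rw [h4]; group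
        _ = t * (t * a) := by rw [hgt', ← hb, h4]
        _ = a := by rw [← mul_assoc, hsq t ht, one_mul]
    calc g ^ 2 * a = (g * (g * a * g⁻¹) * g⁻¹) * g ^ 2 := by rw [pow_two]; group
      _ = a * g ^ 2 := by rw [← hb, h5]
  -- step 2
  set n := orderOf g with hnn
  have hn0 : n ≠ 0 := (orderOf_pos g).ne'
  set m := n / 2 ^ n.factorization 2 with hm
  have hmodd : ¬ 2 ∣ m := Nat.not_dvd_ordCompl Nat.prime_two hn0
  have h2 : Commute (g ^ m) a := by
    apply hcomm _ _ a ha
    apply mem_sylow_of_pow_two_of_normalizer P (k := n.factorization 2)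
    · rw [← pow_mul, mul_comm, Nat.ordProj_mul_ordCompl_eq_self]
      exact pow_orderOf_eq_one g
    · exact Subgroup.pow_mem _ hn m
  -- step 3
  obtain ⟨j, hj⟩ : ∃ j, m = 2 * j + 1 := ⟨m / 2, by omega⟩
  have h3 : g = ((g ^ 2) ^ j)⁻¹ * g ^ m := by
    rw [hj, pow_succ g (2 * j), pow_mul]; group
  rw [h3]
  exact ((h1.pow_left j).inv_left).mul_left h2

/-- If `P` is a Klein four Sylow `2`-subgroup of `G` and `t ∈ P` is an involution then `C_G(t)` has
a normal `2`-complement. -/
theorem hasNormalPComplement_centralizer_of_klein (P : Sylow 2 G) (hP : Nat.card P = 4)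
    (hexp : ∀ x : P, x * x = 1) {t : G} (ht : t ∈ (P : Subgroup G)) (ht1 : t ≠ 1) :
    HasNormalPComplement 2 (Subgroup.centralizer ({t} : Set G)) := by
  have : Fact (Nat.Prime 2) := ⟨Nat.prime_two⟩
  have hK : IsKleinFour P := isKleinFour_of_card_of_exp hP hexp
  have hle : (P : Subgroup G) ≤ Subgroup.centralizer ({t} : Set G) := by
    intro x hx
    rw [Subgroup.mem_centralizer_iff]
    intro v hv
    rw [Set.mem_singleton_iff] at hv
    rw [hv]
    have := (IsKleinFour.isMulCommutative (G := P)).is_comm.comm ⟨t, ht⟩ ⟨x, hx⟩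
    exact congrArg Subtype.val this
  apply Cfsg.Agent.Lib.Helper2.hasNormalPComplement_of_normalizer_le_centralizer (P.subtype hle)
  intro g hg
  rw [Subgroup.mem_centralizer_iff]
  intro a ha
  have haP : (a : G) ∈ (P : Subgroup G) := by
    have : a ∈ ((P.subtype hle : Sylow 2 _) : Subgroup _) := ha
    rw [Sylow.coe_subtype] at this
    exact Subgroup.mem_subgroupOf.1 this
  have hgn : (g : G) ∈ Subgroup.normalizer ((P : Subgroup G) : Set G) := by
    rw [Subgroup.mem_normalizer_iff]
    intro x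
    constructor
    · intro hx
      have h1 := (Subgroup.mem_normalizer_iff.1 hg ⟨x, hle hx⟩).1 (by
        show _ ∈ ((P.subtype hle : Sylow 2 _) : Subgroup (Subgroup.centralizer ({t} : Set G)))
        rw [Sylow.coe_subtype]
        exact Subgroup.mem_subgroupOf.2 hx)
      have h2 : g * ⟨x, hle hx⟩ * g⁻¹ ∈ ((P.subtype hle : Sylow 2 _) : Subgroup _) := h1
      rw [Sylow.coe_subtype] at h2
      exact Subgroup.mem_subgroupOf.1 h2
    · intro hx
      have hxC : x ∈ Subgroup.centralizer ({t} : Set G) := by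
        have h3 : x = (g : G)⁻¹ * ((g : G) * x * (g : G)⁻¹) * (g : G) := by group
        rw [h3]
        exact mul_mem (mul_mem (inv_mem g.2) (hle hx)) g.2
      have h1 := (Subgroup.mem_normalizer_iff.1 hg ⟨x, hxC⟩).2 (by
        show _ ∈ ((P.subtype hle : Sylow 2 _) : Subgroup (Subgroup.centralizer ({t} : Set G)))
        rw [Sylow.coe_subtype]
        exact Subgroup.mem_subgroupOf.2 hx)
      have h2 : (⟨x, hxC⟩ : Subgroup.centralizer ({t} : Set G))
          ∈ ((P.subtype hle : Sylow 2 _) : Subgroup _) := h1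
      rw [Sylow.coe_subtype] at h2
      exact Subgroup.mem_subgroupOf.1 h2
  have hgt : Commute (g : G) t := (Subgroup.mem_centralizer_iff.1 g.2 t rfl).symm
  have := commute_of_normalizer_klein P hP hexp ht ht1 hgn hgt haP
  exact Subtype.ext this.eq.symm

/-- In a group with Klein four Sylow `2`-subgroups every `2`-element squares to one. -/
theorem sq_eq_one_of_klein (P : Sylow 2 G) (hexp : ∀ x : P, x * x = 1) {g : G} {k : ℕ}
    (hg : orderOf g = 2 ^ k) : g * g = 1 := by
  have : Fact (Nat.Prime 2) := ⟨Nat.prime_two⟩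
  have hQ : IsPGroup 2 (Subgroup.zpowers g) := by
    apply IsPGroup.of_card (n := k)
    rw [Nat.card_zpowers, hg]
  obtain ⟨Q, hQ'⟩ := hQ.exists_le_sylow
  obtain ⟨h, hh⟩ := MulAction.exists_smul_eq G Q P
  have h1 : h * g * h⁻¹ ∈ (P : Subgroup G) := by
    rw [← hh, Sylow.coe_subgroup_smul]
    have : g ∈ (Q : Subgroup G) := hQ' (Subgroup.mem_zpowers g)
    have h2 := Subgroup.smul_mem_pointwise_smul g (MulAut.conj h) (Q : Subgroup G) this
    exact h2
  have h2 : (h * g * h⁻¹) * (h * g * h⁻¹) = 1 := congrArg Subtype.val (hexp ⟨_, h1⟩)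
  have h3 : g * g = h⁻¹ * ((h * g * h⁻¹) * (h * g * h⁻¹)) * h := by group
  rw [h3, h2]; group

end Cfsg.Agent.Lib.Helper78
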