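import Mathlib
import Cfsg.Agent.Lib.Helper5.KleinMain
import Cfsg.Agent.Lib.Helper21.DefectCard

set_option autoImplicit false
set_option linter.unusedSectionVars false
set_option linter.style.haveILetI false
open Cfsg
open Cfsg.Agent.Lib.Helper20 Cfsg.Agent.Lib.Helper81 Cfsg.Agent.Lib.Helper80
open Cfsg.Agent.Lib.Helper80.GA Cfsg.Agent.Lib.Helper5

/-! # Blocks with `l(B) = 1` and `k(B) = |D| ≤ 4` are nilpotent -/

namespace Cfsg.Agent.Lib.Helper78.Kuls

section grp

variable {G : Type*} [Group G]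

theorem mem_centralizer_of_zpowers {D : Subgroup G} {y g : G} (hD : ∀ x ∈ D, x ∈ Subgroup.zpowers y)
    (h : g * y * g⁻¹ = y) : g ∈ Subgroup.centralizer (D : Set G) := by
  rw [Subgroup.mem_centralizer_iff]
  intro x hx
  obtain ⟨k, rfl⟩ := Subgroup.mem_zpowers_iff.1 (hD x hx)
  have hc : Commute g y := by
    calc g * y = (g * y * g⁻¹) * g := by group
      _ = y * g := by rw [h]
  exact ((hc.zpow_right k).eq).symm

/-- a subgroup of prime order is generated by each nontrivial element -/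
theorem mem_zpowers_of_prime_card' {D : Subgroup G} {q : ℕ} [Fact q.Prime] (hD : Nat.card D = q)
    {y : G} (hy : y ∈ D) (hy1 : y ≠ 1) : ∀ x ∈ D, x ∈ Subgroup.zpowers y := by
  intro x hx
  have h1 : (⟨x, hx⟩ : D) ∈ Subgroup.zpowers (⟨y, hy⟩ : D) :=
    mem_zpowers_of_prime_card hD (fun h => hy1 (congrArg Subtype.val h))
  obtain ⟨k, hk⟩ := Subgroup.mem_zpowers_iff.1 h1
  exact Subgroup.mem_zpowers_iff.2 ⟨k, by simpa using congrArg Subtype.val hk⟩

/-- an automorphism of a cyclic group of order at most `4` fixes or inverts a generator -/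
theorem conj_eq_or_inv [Finite G] {D : Subgroup G} {y g : G} (hyD : y ∈ D)
    (hD : ∀ x ∈ D, x ∈ Subgroup.zpowers y) (hD4 : Nat.card D ≤ 4)
    (hg : g ∈ Subgroup.normalizer (D : Set G)) : g * y * g⁻¹ = y ∨ g * y * g⁻¹ = y⁻¹ := by
  classical
  have hz : g * y * g⁻¹ ∈ D := (Subgroup.mem_normalizer_iff.1 hg y).1 hyD
  have ho : orderOf y ≤ 4 := by
    have h1 : orderOf (⟨y, hyD⟩ : D) ∣ Nat.card D := orderOf_dvd_natCard _
    rw [Subgroup.orderOf_mk] at h1
    exact (Nat.le_of_dvd Nat.card_pos h1).trans hD4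
  have hpos : 0 < orderOf y := orderOf_pos y
  have hpow : y ^ orderOf y = 1 := pow_orderOf_eq_one y
  have hmem := (mem_zpowers_iff_mem_range_orderOf (x := y) (y := g * y * g⁻¹)).1 (hD _ hz)
  obtain ⟨k, hk, hky⟩ := Finset.mem_image.1 hmem
  rw [Finset.mem_range] at hk
  have hk0 : k = 0 → g * y * g⁻¹ = y := by
    intro h0
    rw [h0, pow_zero] at hky
    have : y = 1 := by
      have h2 : y = g⁻¹ * (g * y * g⁻¹) * g := by group
      rw [h2, ← hky]; group
    rw [this]; group
  have hk1 : k = 1 → g * y * g⁻¹ = y := by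
    intro h0
    rw [h0, pow_one] at hky
    exact hky.symm
  have hlast : k + 1 = orderOf y → g * y * g⁻¹ = y⁻¹ := by
    intro h0
    rw [← hky]
    apply eq_inv_of_mul_eq_one_left
    rw [← pow_succ, h0, hpow]
  by_cases h0 : k = 0
  · exact Or.inl (hk0 h0)
  by_cases h1 : k = 1
  · exact Or.inl (hk1 h1)
  by_cases h2 : k + 1 = orderOf y
  · exact Or.inr (hlast h2)
  exfalso
  have hk2 : k = 2 := by omega
  have ho4 : orderOf y = 4 := by omega
  subst hk2
  have h3 : (g * y * g⁻¹) ^ 2 = 1 := by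
    rw [← hky, ← pow_mul]
    rw [ho4] at hpow
    exact hpow
  have h4 : y ^ 2 = 1 := by
    have h5 : y ^ 2 = g⁻¹ * (g * y * g⁻¹) ^ 2 * g := by
      rw [pow_two, pow_two]; group
    rw [h5, h3]; group
  have := orderOf_dvd_of_pow_eq_one h4
  rw [ho4] at this
  omega

theorem sq_conj_eq [Finite G] {D : Subgroup G} {y g : G} (hyD : y ∈ D)
    (hD : ∀ x ∈ D, x ∈ Subgroup.zpowers y) (hD4 : Nat.card D ≤ 4)
    (hg : g ∈ Subgroup.normalizer (D : Set G)) : g ^ 2 * y * (g ^ 2)⁻¹ = y := by
  have h0 : g ^ 2 * y * (g ^ 2)⁻¹ = g * (g * y * g⁻¹) * g⁻¹ := by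
    rw [pow_two]; group
  rw [h0]
  rcases conj_eq_or_inv hyD hD hD4 hg with h | h
  · rw [h, h]
  · rw [h]
    have h1 : g * y⁻¹ * g⁻¹ = (g * y * g⁻¹)⁻¹ := by group
    rw [h1, h, inv_inv]

end grp

variable {p : ℕ} {M : Ideal AlgInt}
variable {G : Type*} [Group G] [Fintype G]

theorem nilpotent_of_small (hM : IsPModular p M) {B : Set (IrrCharacter G)} (hB : IsPBlock M B)
    {D : Subgroup G} (hD : IsDefectGroup p M B D) (hl : blockRank p B = 1)
    (hDk : Nat.card D = Nat.card B) (hk : Nat.card B ≤ 4) : IsNilpotentBlock p M B := by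
  classical
  haveI : Fact p.Prime := ⟨hM.1⟩
  have hp := hM.1
  have hcard := Cfsg.Agent.Lib.Helper21.card_defectGroup hM B hB D hD
  have hD4 : Nat.card D ≤ 4 := hDk ▸ hk
  -- Klein four case first
  by_cases hV : IsKleinFour D
  · have h4 : Nat.card D = 4 := IsKleinFour.card_four
    have hp2 : p = 2 := by
      rw [h4] at hcard
      have h1 : p ∣ 4 := by
        rw [hcard]
        apply dvd_pow_self
        intro h0
        rw [h0, pow_zero] at hcard
        omega
      have h2 : p ∣ 2 ^ 2 := by norm_num; exact h1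
      exact (Nat.prime_dvd_prime_iff_eq hp Nat.prime_two).1 (hp.dvd_of_dvd_pow h2)
    subst hp2
    rcases klein_rank hM hB hD hV with h | h
    · exact h.1
    · rw [hl] at h; omega
  -- D is cyclic
  have hcyc : IsCyclic D := by
    have hpos : 0 < Nat.card D := Nat.card_pos
    by_contra hnc
    have h4 : Nat.card D = 4 := by
      by_contra h4
      have h3 : Nat.card D = 1 ∨ Nat.card D = 2 ∨ Nat.card D = 3 := by omega
      rcases h3 with h | h | h
      · have : Subsingleton D := (Nat.card_eq_one_iff_unique.1 h).1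
        exact hnc isCyclic_of_subsingleton
      · haveI : Fact (Nat.Prime 2) := ⟨Nat.prime_two⟩
        exact hnc (isCyclic_of_prime_card h)
      · haveI : Fact (Nat.Prime 3) := ⟨Nat.prime_three⟩
        exact hnc (isCyclic_of_prime_card h)
    exact hV ⟨h4, (not_isCyclic_iff_exponent_eq_prime Nat.prime_two (by rw [h4]; norm_num)).1 hnc⟩
  obtain ⟨y, hyD, hygen⟩ : ∃ y ∈ D, ∀ x ∈ D, x ∈ Subgroup.zpowers y := by
    obtain ⟨g, hg⟩ := hcyc.exists_generator
    refine ⟨g, g.2, fun x hx => ?_⟩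
    obtain ⟨k, hk⟩ := Subgroup.mem_zpowers_iff.1 (hg ⟨x, hx⟩)
    exact Subgroup.mem_zpowers_iff.2 ⟨k, by simpa using congrArg Subtype.val hk⟩
  have hab : ∀ x ∈ D, ∀ y ∈ D, x * y = y * x := by
    intro a ha b hb
    obtain ⟨i, rfl⟩ := Subgroup.mem_zpowers_iff.1 (hygen a ha)
    obtain ⟨j, rfl⟩ := Subgroup.mem_zpowers_iff.1 (hygen b hb)
    rw [← zpow_add, ← zpow_add, add_comm]
  have hdef := isDef_of_isDefectGroup hM hB hD
  obtain ⟨e, hmax⟩ := (isBlk_blkR hM hB).exists_isMaxBP_of_isDef hdef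
  have he : IsBP p D e := hmax.1.1
  have hN : D ⊔ Cn D ≤ stabP D e := sup_le (le_stabP he.2.inZ) (Cn_le_stabP he.2.inZ)
  have hblk : IsBlk (D ⊔ Cn D) e :=
    he.isBlk_of_fix le_sup_left le_sup_right (hN.trans (stabP_le_Nn D _))
      ((fixBy_stabP D _).mono hN)
  have hsp := split_sub hM hblk
  have hTp : ∀ S : Subgroup G, S ≤ stabP D e → IsPGroup p S →
      S ≤ Subgroup.centralizer (D : Set G) := fun S hS hSp =>
    (hmax.pSubgroup_le hsp hS hSp).trans (sup_le (le_Cn_of_abelian hab le_rfl) le_rfl)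
  rw [isNilpotentBlock_iff hM hB, hmax.abelian_nilB_iff hab hsp]
  intro t ht
  by_contra htC
  have htN : t ∈ Subgroup.normalizer (D : Set G) := stabP_le_Nn D e ht
  have hfree : ∀ g ∈ stabP D e, g * y * g⁻¹ = y → g ∈ Cn D := fun g _ h =>
    mem_centralizer_of_zpowers hygen h
  have hpdvd : Nat.card D ≠ 1 → p ∣ Nat.card D := by
    intro h1
    rw [hcard]
    apply dvd_pow_self
    intro h0
    rw [h0, pow_zero] at hcard
    exact h1 hcard
  have hpos : 0 < Nat.card D := Nat.card_pos
  have hcases : Nat.card D = 1 ∨ Nat.card D = 3 ∨ (Nat.card D = 2 ∨ Nat.card D = 4) := by omega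
  rcases hcases with h1 | h3 | h24
  · -- trivial defect group
    have : Subsingleton D := (Nat.card_eq_one_iff_unique.1 h1).1
    have hy1 : y = 1 := congrArg Subtype.val (Subsingleton.elim (⟨y, hyD⟩ : D) 1)
    exact htC (hfree t ht (by rw [hy1]; group))
  · -- order three: the action would be free and transitive
    haveI : Fact (Nat.Prime 3) := ⟨Nat.prime_three⟩
    have hP1 : D ≠ ⊥ := by
      intro h
      rw [h] at h3
      simp at h3
    have hfree' : ∀ g ∈ stabP D e, ∀ x ∈ D, x ≠ 1 → g * x * g⁻¹ = x → g ∈ Cn D :=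
      fun g _ x hx hx1 h => mem_centralizer_of_zpowers (mem_zpowers_of_prime_card' h3 hx hx1) h
    have hinv : ∀ u ∈ D, u ≠ 1 → t * u * t⁻¹ = u⁻¹ := by
      intro u hu hu1
      rcases conj_eq_or_inv hu (mem_zpowers_of_prime_card' h3 hu hu1) hD4 htN with h | h
      · exact absurd (hfree' t ht u hu hu1 h) htC
      · exact h
    have htrans : ∀ u ∈ D, u ≠ 1 → ∀ u' ∈ D, u' ≠ 1 → ∃ s ∈ stabP D e, s * u * s⁻¹ = u' := by
      intro u hu hu1 u' hu' hu1'
      have hou : orderOf u = 3 := by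
        have h1 : orderOf (⟨u, hu⟩ : D) ∣ Nat.card D := orderOf_dvd_natCard _
        rw [Subgroup.orderOf_mk, h3] at h1
        rcases (Nat.dvd_prime Nat.prime_three).1 h1 with h | h
        · exact absurd (orderOf_eq_one_iff.1 h) hu1
        · exact h
      have hmem := (mem_zpowers_iff_mem_range_orderOf (x := u) (y := u')).1
        (mem_zpowers_of_prime_card' h3 hu hu1 u' hu')
      obtain ⟨k, hk, hky⟩ := Finset.mem_image.1 hmem
      rw [Finset.mem_range, hou] at hk
      have hu3 : u ^ 3 = 1 := hou ▸ pow_orderOf_eq_one u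
      interval_cases k
      · exact absurd (by simpa using hky.symm) hu1'
      · exact ⟨1, Subgroup.one_mem _, by rw [← hky]; group⟩
      · refine ⟨t, ht, ?_⟩
        rw [hinv u hu hu1, ← hky]
        symm
        apply eq_inv_of_mul_eq_one_left
        rw [← pow_succ]; exact hu3
    have := card_eq_rank_add_one hM hB hmax hD hP1 hab hfree' htrans
    rw [hl, ← hDk, h3] at this
    omega
  · -- `p = 2`
    have hp2 : p = 2 := by
      have h1 : p ∣ 2 ^ 2 := by
        rcases h24 with h | h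
        · have := hpdvd (by omega)
          rw [h] at this
          exact this.trans (by norm_num)
        · have := hpdvd (by omega)
          rw [h] at this
          exact this.trans (by norm_num)
      exact (Nat.prime_dvd_prime_iff_eq hp Nat.prime_two).1 (hp.dvd_of_dvd_pow h1)
    subst hp2
    apply htC
    apply mem_of_p_and_p' (p := 2)
    · intro j hj
      have hn : (t ^ j) ^ 2 ∈ Cn D :=
        mem_centralizer_of_zpowers hygen
          (sq_conj_eq hyD hygen hD4 (Subgroup.pow_mem _ htN j))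
      have hcop : (2 : ℕ).Coprime (orderOf (t ^ j)) :=
        (Nat.Prime.coprime_iff_not_dvd Nat.prime_two).2 hj
      obtain ⟨m, hm⟩ := exists_pow_eq_self_of_coprime hcop
      rw [← hm]
      exact Subgroup.pow_mem _ hn m
    · intro j hj
      exact hTp _ (by rw [Subgroup.zpowers_le]; exact Subgroup.pow_mem _ ht j) hj
        (Subgroup.mem_zpowers _)

end Cfsg.Agent.Lib.Helper78.Kuls
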