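import Mathlib
import Cfsg.Agent.Lib.Helper78.DefOneSetup
import Cfsg.Agent.Lib.Helper25.DefOneL
import Cfsg.Agent.Lib.Helper21.Tower
import Cfsg.Agent.Lib.Helper21.FirstMain

/-!
# Sylow subgroups of prime order: a block and its Brauer correspondent have equally many characters
-/

set_option autoImplicit false
set_option linter.unusedSectionVars false
open Cfsg

namespace Cfsg.Agent.Lib.Helper78

open Cfsg.Agent.Lib.Helper21 Cfsg.Agent.Lib.Helper81

/-- the local data for a fixed Sylow subgroup, for a subgroup equal to the centralizer -/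
theorem exists_local_data {Γ : Type*} [Group Γ] [Finite Γ] (p : ℕ) [Fact p.Prime]
    (M : Ideal AlgInt) (hM : IsPModular p M) (Q : Sylow p Γ) (hQ : Nat.card Q = p)
    (β : Set (IrrCharacter Γ)) (hβ : IsPBlock M β) (hβQ : IsDefectGroup p M β Q)
    (Cc : Subgroup Γ) (hCc : Cc = Subgroup.centralizer ((Q : Subgroup Γ) : Set Γ)) :
    ∃ b : Set (IrrCharacter Cc), IsInducedBlock M Cc b β ∧
      ∃ θ ∈ b, ∀ x : Cc, (x : Γ) ∈ (Q : Subgroup Γ) → (θ : Cc → ℂ) x = (θ : Cc → ℂ) 1 := by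
  subst hCc
  have : Fintype Γ := Fintype.ofFinite Γ
  have hPC : (Q : Subgroup Γ) ≤ Subgroup.centralizer ((Q : Subgroup Γ) : Set Γ) :=
    Cfsg.Agent.Lib.Helper80.le_Cn_of_prime_card hQ
  obtain ⟨b, -, hind⟩ := exists_block_of_defectGroup hM hPC le_rfl
    (Subgroup.centralizer_le_normalizer _) β hβ hβQ
  refine ⟨b, hind, ?_⟩
  have hnorm : ((Q : Subgroup Γ).subgroupOf
      (Subgroup.centralizer ((Q : Subgroup Γ) : Set Γ))).Normal := by
    constructor
    intro n hn g
    rw [Subgroup.mem_subgroupOf] at hn ⊢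
    have h1 := (Subgroup.mem_centralizer_iff.1 g.2) _ hn
    have h2 : ((g * n * g⁻¹ : Subgroup.centralizer ((Q : Subgroup Γ) : Set Γ)) : Γ) = n := by
      push_cast
      rw [← h1]; group
    rw [h2]; exact hn
  have hpg : IsPGroup p ((Q : Subgroup Γ).subgroupOf
      (Subgroup.centralizer ((Q : Subgroup Γ) : Set Γ))) :=
    Q.2.comap_of_injective _ (Subgroup.subtype_injective _)
  obtain ⟨χ, θ, hθ, hθχ⟩ := exists_inflation_mem_block hM _ hpg b hind.1
  refine ⟨θ, hθ, ?_⟩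
  intro x hx
  rw [hθχ]
  simp only [Function.comp_apply]
  have h1 : (QuotientGroup.mk x : Subgroup.centralizer ((Q : Subgroup Γ) : Set Γ) ⧸
      (Q : Subgroup Γ).subgroupOf (Subgroup.centralizer ((Q : Subgroup Γ) : Set Γ))) = 1 :=
    (QuotientGroup.eq_one_iff x).2 (Subgroup.mem_subgroupOf.2 hx)
  rw [h1]
  rfl

/-- the number of characters of a block of defect one, for a subgroup equal to the centralizer -/
theorem card_block_general {Γ : Type*} [Group Γ] [Finite Γ] (p : ℕ) [Fact p.Prime]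
    (M : Ideal AlgInt) (hM : IsPModular p M) (Q : Sylow p Γ) (hQ : Nat.card Q = p)
    (β : Set (IrrCharacter Γ)) (hβ : IsPBlock M β) (hβQ : IsDefectGroup p M β Q)
    (Cc : Subgroup Γ) (hCc : Cc = Subgroup.centralizer ((Q : Subgroup Γ) : Set Γ))
    (b : Set (IrrCharacter Cc)) (hind : IsInducedBlock M Cc b β) (θ : IrrCharacter Cc)
    (hθ : θ ∈ b)
    (hθP : ∀ x : Cc, (x : Γ) ∈ (Q : Subgroup Γ) → (θ : Cc → ℂ) x = (θ : Cc → ℂ) 1)
    (T : Subgroup Γ)
    (hT : ∀ g : Γ, g ∈ T ↔ (g ∈ Subgroup.normalizer ((Q : Subgroup Γ) : Set Γ) ∧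
      ∀ c c' : Cc, (c' : Γ) = g * c * g⁻¹ → (θ : Cc → ℂ) c' = (θ : Cc → ℂ) c)) :
    Nat.card β = Cc.relIndex T + (p - 1) / Cc.relIndex T := by
  subst hCc
  exact (Cfsg.Agent.Lib.Helper25.defect_one_general p M hM Q hQ β hβ hβQ b hind θ hθ hθP T hT _ _
    rfl rfl (Cfsg.Agent.Lib.Helper80.le_blockRank p M hM Q hQ β b hind θ hθ hθP T hT)).2.1

/-- transitivity of block induction, the other way round -/
theorem isInducedBlock_of_tower {G : Type*} [Group G] [Fintype G] {p : ℕ} {M : Ideal AlgInt}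
    (hM : IsPModular p M) {K H : Subgroup G} (hKH : K ≤ H)
    {b : Set (IrrCharacter K)} (hb : IsPBlock M b) {β : Set (IrrCharacter H)}
    {B : Set (IrrCharacter G)}
    (hind : IsInducedBlock M (K.subgroupOf H) (downBlock hKH b) β)
    (hβB : IsInducedBlock M H β B) : IsInducedBlock M K b B := by
  refine ⟨hb, hβB.2.1, ?_⟩
  intro ξ hξ χ hχ g
  obtain ⟨η, hη⟩ := isPBlock_nonempty hM hβB.1
  have h1 := inducedCentralChar_tower hM hKH hind hξ hη g
  have h2 := hβB.2.2 η hη χ hχ g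
  have h3 := memLocalIdeal_add hM h1 h2
  have h4 : inducedCentralChar K (ξ : K → ℂ) g - inducedCentralChar H (η : H → ℂ) g
      + (inducedCentralChar H (η : H → ℂ) g - centralChar (χ : G → ℂ) g)
      = inducedCentralChar K (ξ : K → ℂ) g - centralChar (χ : G → ℂ) g := by ring
  rwa [h4] at h3

end Cfsg.Agent.Lib.Helper78
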