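import Mathlib
import Cfsg.Agent.Lib.Helper78.McKayOneA

/-!
# Sylow subgroups of prime order: a block and its Brauer correspondent have equally many characters
-/

set_option autoImplicit false
set_option linter.unusedSectionVars false
open Cfsg

namespace Cfsg.Agent.Lib.Helper78

open Cfsg.Agent.Lib.Helper21 Cfsg.Agent.Lib.Helper81

theorem centralizer_subgroupOf_normalizer {G : Type*} [Group G] (P N : Subgroup G) (hPN : P ≤ N) :
    (Subgroup.centralizer (P : Set G)).subgroupOf N
      = Subgroup.centralizer ((P.subgroupOf N : Subgroup N) : Set N) := by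
  ext x
  rw [Subgroup.mem_subgroupOf, Subgroup.mem_centralizer_iff, Subgroup.mem_centralizer_iff]
  constructor
  · intro h y hy
    apply Subtype.ext
    exact h y (Subgroup.mem_subgroupOf.1 hy)
  · intro h y hy
    have := h ⟨y, hPN hy⟩ (Subgroup.mem_subgroupOf.2 hy)
    exact congrArg Subtype.val this

theorem card_block_eq_card_correspondent {G : Type*} [Group G] [Finite G] (p : ℕ) [Fact p.Prime]
    (M : Ideal AlgInt) (hM : IsPModular p M) (P : Sylow p G) (hP : Nat.card P = p)
    (B : Set (IrrCharacter G)) (hBP : IsDefectGroup p M B P)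
    (β : Set (IrrCharacter (Subgroup.normalizer ((P : Subgroup G) : Set G))))
    (hβB : IsInducedBlock M (Subgroup.normalizer ((P : Subgroup G) : Set G)) β B) :
    Nat.card B = Nat.card β := by
  classical
  have : Fintype G := Fintype.ofFinite G
  have hB : IsPBlock M B := hβB.2.1
  have hβ : IsPBlock M β := hβB.1
  obtain ⟨N, hN⟩ : ∃ N : Subgroup G, N = Subgroup.normalizer ((P : Subgroup G) : Set G) :=
    ⟨_, rfl⟩
  obtain ⟨C, hC⟩ : ∃ C : Subgroup G, C = Subgroup.centralizer ((P : Subgroup G) : Set G) :=
    ⟨_, rfl⟩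
  have hPN : (P : Subgroup G) ≤ Subgroup.normalizer ((P : Subgroup G) : Set G) :=
    Subgroup.le_normalizer
  have hCN : Subgroup.centralizer ((P : Subgroup G) : Set G)
      ≤ Subgroup.normalizer ((P : Subgroup G) : Set G) := Subgroup.centralizer_le_normalizer _
  -- the Sylow subgroup of the normalizer
  obtain ⟨Q, hQdef⟩ : ∃ Q : Sylow p (Subgroup.normalizer ((P : Subgroup G) : Set G)),
      (Q : Subgroup (Subgroup.normalizer ((P : Subgroup G) : Set G)))
        = (P : Subgroup G).subgroupOf (Subgroup.normalizer ((P : Subgroup G) : Set G)) :=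
    ⟨P.subtype hPN, rfl⟩
  have hQ : Nat.card Q = p := by
    show Nat.card (Q : Subgroup (Subgroup.normalizer ((P : Subgroup G) : Set G))) = p
    rw [hQdef, Nat.card_congr (Subgroup.subgroupOfEquivOfLe hPN).toEquiv]
    exact hP
  have hβQ : IsDefectGroup p M β Q := by
    rw [hQdef]
    exact isDefectGroup_subgroupOf_of_induced hM hPN le_rfl hβB hBP
  have hCc : (Subgroup.centralizer ((P : Subgroup G) : Set G)).subgroupOf
      (Subgroup.normalizer ((P : Subgroup G) : Set G))
      = Subgroup.centralizer ((Q : Subgroup (Subgroup.normalizer ((P : Subgroup G) : Set G)))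
        : Set (Subgroup.normalizer ((P : Subgroup G) : Set G))) := by
    rw [hQdef]
    exact centralizer_subgroupOf_normalizer _ _ hPN
  obtain ⟨b', hind', θ', hθ', hθ'P⟩ := exists_local_data p M hM Q hQ β hβ hβQ _ hCc
  -- transport to `C_G(P)`
  set e := Subgroup.subgroupOfEquivOfLe hCN with he
  obtain ⟨b, hbdef⟩ : ∃ b : Set (IrrCharacter (Subgroup.centralizer ((P : Subgroup G) : Set G))),
      b = irrCongr e.symm '' b' := ⟨_, rfl⟩
  have hb : IsPBlock M b := by
    rw [hbdef]; exact isPBlock_image_irrCongr e.symm hind'.1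
  have hdown : downBlock hCN b = b' := by
    unfold downBlock
    rw [hbdef, Set.image_image]
    have : ∀ x : IrrCharacter ((Subgroup.centralizer ((P : Subgroup G) : Set G)).subgroupOf
        (Subgroup.normalizer ((P : Subgroup G) : Set G))),
        irrCongr (Subgroup.subgroupOfEquivOfLe hCN) (irrCongr e.symm x) = x := by
      intro x
      apply Subtype.ext
      funext c
      simp [irrCongr_coe, he]
    simp only [this, Set.image_id']
  have hindb : IsInducedBlock M (Subgroup.centralizer ((P : Subgroup G) : Set G)) b B := by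
    apply isInducedBlock_of_tower hM hCN hb _ hβB
    rw [hdown]; exact hind'
  obtain ⟨θ, hθdef⟩ : ∃ θ : IrrCharacter (Subgroup.centralizer ((P : Subgroup G) : Set G)),
      θ = irrCongr e.symm θ' := ⟨_, rfl⟩
  have hθ : θ ∈ b := by rw [hbdef, hθdef]; exact ⟨θ', hθ', rfl⟩
  have hθval : ∀ c : Subgroup.centralizer ((P : Subgroup G) : Set G),
      (θ : Subgroup.centralizer ((P : Subgroup G) : Set G) → ℂ) c = (θ' : _ → ℂ) (e.symm c) := by
    intro c; rw [hθdef]; rfl
  have hecoe : ∀ c : Subgroup.centralizer ((P : Subgroup G) : Set G),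
      (((e.symm c : (Subgroup.centralizer ((P : Subgroup G) : Set G)).subgroupOf
        (Subgroup.normalizer ((P : Subgroup G) : Set G))) :
          Subgroup.normalizer ((P : Subgroup G) : Set G)) : G) = c := by
    intro c; rfl
  have hθP : ∀ x : Subgroup.centralizer ((P : Subgroup G) : Set G), (x : G) ∈ (P : Subgroup G) →
      (θ : Subgroup.centralizer ((P : Subgroup G) : Set G) → ℂ) x
        = (θ : Subgroup.centralizer ((P : Subgroup G) : Set G) → ℂ) 1 := by
    intro x hx
    rw [hθval, hθval, map_one]
    apply hθ'P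
    rw [hQdef, Subgroup.mem_subgroupOf, hecoe]
    exact hx
  obtain ⟨T, hT⟩ := exists_stab (P : Subgroup G)
    (θ : Subgroup.centralizer ((P : Subgroup G) : Set G) → ℂ)
  have hTN : T ≤ Subgroup.normalizer ((P : Subgroup G) : Set G) := fun g hg => ((hT g).1 hg).1
  have hQnorm : (Q : Subgroup (Subgroup.normalizer ((P : Subgroup G) : Set G))).Normal := by
    rw [hQdef]; exact Subgroup.normal_in_normalizer
  have hT' : ∀ g : Subgroup.normalizer ((P : Subgroup G) : Set G),
      g ∈ T.subgroupOf (Subgroup.normalizer ((P : Subgroup G) : Set G)) ↔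
      (g ∈ Subgroup.normalizer ((Q : Subgroup (Subgroup.normalizer ((P : Subgroup G) : Set G)))
        : Set (Subgroup.normalizer ((P : Subgroup G) : Set G))) ∧
      ∀ c c' : (Subgroup.centralizer ((P : Subgroup G) : Set G)).subgroupOf
        (Subgroup.normalizer ((P : Subgroup G) : Set G)),
        (c' : Subgroup.normalizer ((P : Subgroup G) : Set G)) = g * c * g⁻¹ →
        (θ' : _ → ℂ) c' = (θ' : _ → ℂ) c) := by
    intro g
    rw [Subgroup.mem_subgroupOf, hT]
    constructor
    · rintro ⟨-, h⟩
      refine ⟨(Subgroup.normalizer_eq_top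
        (H := (Q : Subgroup (Subgroup.normalizer ((P : Subgroup G) : Set G))))).symm ▸
          Subgroup.mem_top g, ?_⟩
      intro c c' hc
      have h1 := h (e c) (e c') (by
        have := congrArg Subtype.val hc
        exact this)
      rw [hθval, hθval, e.symm_apply_apply, e.symm_apply_apply] at h1
      exact h1
    · rintro ⟨-, h⟩
      refine ⟨g.2, ?_⟩
      intro c c' hc
      rw [hθval, hθval]
      apply h
      apply Subtype.ext
      rw [hecoe]
      push_cast
      rw [hecoe]
      exact hc
  have h1 := card_block_general p M hM P hP B hB hBP _ rfl b hindb θ hθ hθP T hT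
  have h2 := card_block_general p M hM Q hQ β hβ hβQ _ hCc b' hind' θ' hθ' hθ'P _ hT'
  rw [Subgroup.relIndex_subgroupOf hTN] at h2
  rw [h1, h2]

end Cfsg.Agent.Lib.Helper78
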