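import Mathlib
import Cfsg.Agent.Lib.Helper78.McKayOneB
import Cfsg.Agent.Lib.Helper78.DefectZero
import Cfsg.Agent.Lib.Helper82.Codegree
import Cfsg.Agent.Lib.Helper21.StabDefect
import Cfsg.Agent.Lib.Helper20.CharCount
import Cfsg.Agent.S0919

/-!
# Sylow subgroups of prime order: the McKay count
-/

set_option autoImplicit false
set_option linter.unusedSectionVars false
open Cfsg

namespace Cfsg.Agent.Lib.Helper78

open Cfsg.Agent.Lib.Helper21 Cfsg.Agent.Lib.Helper81

/-- counting by fibres along a one-to-one correspondence of the fibres -/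
theorem card_eq_of_fiber_rel {α β ι κ : Type*} [Finite α] [Finite β] (f : α → ι) (g : β → κ)
    (R : ι → κ → Prop) (h1 : ∀ a, ∃ b, R (f a) (g b)) (h2 : ∀ b, ∃ a, R (f a) (g b))
    (h3 : ∀ i k k', R i k → R i k' → k = k') (h4 : ∀ i i' k, R i k → R i' k → i = i')
    (h5 : ∀ a b, R (f a) (g b) → Nat.card {a' // f a' = f a} = Nat.card {b' // g b' = g b}) :
    Nat.card α = Nat.card β := by
  classical
  have : Fintype α := Fintype.ofFinite α
  have : Fintype β := Fintype.ofFinite β
  have hα : Nat.card α = ∑ i ∈ Finset.univ.image f, Nat.card {a' // f a' = i} := by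
    rw [Nat.card_eq_fintype_card, ← Finset.card_univ, Finset.card_eq_sum_card_image f]
    apply Finset.sum_congr rfl
    intro i _
    rw [Nat.card_eq_fintype_card, Fintype.card_subtype]
  have hβ : Nat.card β = ∑ k ∈ Finset.univ.image g, Nat.card {b' // g b' = k} := by
    rw [Nat.card_eq_fintype_card, ← Finset.card_univ, Finset.card_eq_sum_card_image g]
    apply Finset.sum_congr rfl
    intro i _
    rw [Nat.card_eq_fintype_card, Fintype.card_subtype]
  have hex : ∀ i ∈ Finset.univ.image f, ∃ k, k ∈ Finset.univ.image g ∧ R i k := by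
    intro i hi
    obtain ⟨a, -, rfl⟩ := Finset.mem_image.1 hi
    obtain ⟨b, hb⟩ := h1 a
    exact ⟨g b, Finset.mem_image_of_mem g (Finset.mem_univ b), hb⟩
  rw [hα, hβ]
  apply Finset.sum_bij (fun i hi => Classical.choose (hex i hi))
  · intro i hi
    exact (Classical.choose_spec (hex i hi)).1
  · intro i hi i' hi' heq
    have e1 := (Classical.choose_spec (hex i hi)).2
    have e2 := (Classical.choose_spec (hex i' hi')).2
    rw [← heq] at e2
    exact h4 _ _ _ e1 e2
  · intro k hk
    obtain ⟨b, -, rfl⟩ := Finset.mem_image.1 hk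
    obtain ⟨a, ha⟩ := h2 b
    refine ⟨f a, Finset.mem_image_of_mem f (Finset.mem_univ a), ?_⟩
    exact h3 _ _ _ (Classical.choose_spec
      (hex (f a) (Finset.mem_image_of_mem f (Finset.mem_univ a)))).2 ha
  · intro i hi
    obtain ⟨a, -, rfl⟩ := Finset.mem_image.1 hi
    have e1 := Classical.choose_spec (hex (f a) hi)
    obtain ⟨b, -, hb⟩ := Finset.mem_image.1 e1.1
    rw [← hb]
    apply h5
    rw [hb]
    exact e1.2

section

variable {G : Type*} [Group G] [Finite G] {p : ℕ} [Fact p.Prime] {M : Ideal AlgInt}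

theorem factorization_eq_one_of_sylow (P : Sylow p G) (hP : Nat.card P = p) :
    (Nat.card G).factorization p = 1 := by
  have hp : p.Prime := Fact.out
  have h4 : Nat.card (P : Subgroup G) = p ^ (Nat.card G).factorization p := P.card_eq_multiplicity
  have hP' : Nat.card (P : Subgroup G) = p := hP
  rw [hP'] at h4
  have h5 : p ^ 1 = p ^ (Nat.card G).factorization p := by rw [pow_one]; exact h4
  exact (Nat.pow_right_injective hp.two_le h5).symm

/-- members of a block of full defect have degree prime to `p` -/
theorem not_dvd_degree_of_defectGroup (hM : IsPModular p M) (P : Sylow p G) (hP : Nat.card P = p)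
    {B : Set (IrrCharacter G)} (hB : IsPBlock M B) (hBP : IsDefectGroup p M B P)
    {χ : IrrCharacter G} (hχ : χ ∈ B) : ¬ p ∣ charDegree (χ : G → ℂ) := by
  have hp : p.Prime := Fact.out
  have : Fintype G := Fintype.ofFinite G
  intro hdvd
  have hfac := factorization_eq_one_of_sylow P hP
  obtain ⟨m, hm⟩ := Cfsg.Agent.Lib.Helper82.isIrr_charDegree_dvd_card χ.2
  have hd0 : charDegree (χ : G → ℂ) ≠ 0 := by
    intro h0
    rw [h0, zero_mul] at hm
    exact Nat.card_pos.ne' hm
  have hν : 1 ≤ (charDegree (χ : G → ℂ)).factorization p :=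
    (hp.dvd_iff_one_le_factorization hd0).1 hdvd
  have hpm : ¬ p ∣ m := by
    intro hpm
    have hm0 : m ≠ 0 := by
      rintro rfl
      rw [mul_zero] at hm
      exact Nat.card_pos.ne' hm
    have h1 : 1 ≤ m.factorization p := (hp.dvd_iff_one_le_factorization hm0).1 hpm
    have h2 : (Nat.card G).factorization p
        = (charDegree (χ : G → ℂ)).factorization p + m.factorization p := by
      rw [hm, Nat.factorization_mul hd0 hm0]; rfl
    omega
  have h1 := blockOf_eq_singleton_of_defect_zero hM χ hm hpm
  have h2 : B = {χ} := by rw [isPBlock_eq_blockOf hM hB hχ, h1]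
  have h3 := card_defectGroup hM B hB _ hBP
  have h4 : blockDefect p B = 0 := by
    unfold blockDefect
    rw [h2, Set.image_singleton, csInf_singleton, hfac]
    omega
  rw [h4, pow_zero] at h3
  have hP' : Nat.card (P : Subgroup G) = p := hP
  rw [hP'] at h3
  exact hp.one_lt.ne' h3

/-- the block of a character of degree prime to `p` has full defect -/
theorem isDefectGroup_of_not_dvd_degree (hM : IsPModular p M) (P : Sylow p G)
    (hP : Nat.card P = p) (χ : IrrCharacter G) (hχ : ¬ p ∣ charDegree (χ : G → ℂ)) :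
    IsDefectGroup p M (blockOf M (χ : G → ℂ)) P := by
  have hp : p.Prime := Fact.out
  have : Fintype G := Fintype.ofFinite G
  have hfac := factorization_eq_one_of_sylow P hP
  have hB : IsPBlock M (blockOf M (χ : G → ℂ)) := ⟨χ, rfl⟩
  obtain ⟨D, hD⟩ := exists_isDefectGroup hM _ hB
  have hc := card_defectGroup hM _ hB D hD
  have hdef : blockDefect p (blockOf M (χ : G → ℂ)) = 1 := by
    unfold blockDefect
    have h1 : sInf ((fun χ : IrrCharacter G => (charDegree (χ : G → ℂ)).factorization p) ''
        (blockOf M (χ : G → ℂ))) ≤ (charDegree (χ : G → ℂ)).factorization p :=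
      Nat.sInf_le ⟨χ, mem_blockOf_self hM χ, rfl⟩
    rw [Nat.factorization_eq_zero_of_not_dvd hχ] at h1
    rw [hfac]
    omega
  rw [hdef, pow_one] at hc
  obtain ⟨Q, hQD⟩ : ∃ Q : Sylow p G, (Q : Subgroup G) = D :=
    ⟨Sylow.ofCard D (by rw [hc, hfac, pow_one]), rfl⟩
  obtain ⟨g, hg⟩ := MulAction.exists_smul_eq G Q P
  have h1 := isDefectGroup_conj hD g
  have h2 : D.map (MulAut.conj g).toMonoidHom = (P : Subgroup G) := by
    rw [← hg, ← hQD]
    rfl
  rw [h2] at h1
  exact h1

/-- every block of the normalizer has the Sylow subgroup as its defect group -/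
theorem isDefectGroup_normalizer (hM : IsPModular p M) (P : Sylow p G) (hP : Nat.card P = p)
    {β : Set (IrrCharacter (Subgroup.normalizer ((P : Subgroup G) : Set G)))}
    (hβ : IsPBlock M β) :
    IsDefectGroup p M β
      ((P : Subgroup G).subgroupOf (Subgroup.normalizer ((P : Subgroup G) : Set G))) := by
  have hp : p.Prime := Fact.out
  have : Fintype G := Fintype.ofFinite G
  have : Fintype (Subgroup.normalizer ((P : Subgroup G) : Set G)) := Fintype.ofFinite _
  have hfac := factorization_eq_one_of_sylow P hP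
  obtain ⟨D, hD⟩ := exists_isDefectGroup hM β hβ
  have hc := card_defectGroup hM β hβ D hD
  have hnorm : ((P : Subgroup G).subgroupOf
      (Subgroup.normalizer ((P : Subgroup G) : Set G))).Normal := Subgroup.normal_in_normalizer
  have hle := normal_pSubgroup_le_defectGroup hM β hβ D hD
    ((P : Subgroup G).subgroupOf (Subgroup.normalizer ((P : Subgroup G) : Set G)))
    (P.2.comap_of_injective _ (Subgroup.subtype_injective _))
  have hcard : Nat.card ((P : Subgroup G).subgroupOf
      (Subgroup.normalizer ((P : Subgroup G) : Set G))) = p := by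
    rw [Nat.card_congr (Subgroup.subgroupOfEquivOfLe Subgroup.le_normalizer).toEquiv]
    exact hP
  have hdvd : p ^ blockDefect p β ∣ Nat.card G := by
    rw [← hc]
    exact (Subgroup.card_subgroup_dvd_card D).trans (Subgroup.card_subgroup_dvd_card _)
  have hd1 : blockDefect p β ≤ 1 := by
    rw [← hfac]
    exact (hp.pow_dvd_iff_le_factorization Nat.card_pos.ne').1 hdvd
  have hge : Nat.card D ≤ Nat.card ((P : Subgroup G).subgroupOf
      (Subgroup.normalizer ((P : Subgroup G) : Set G))) := by
    rw [hc, hcard]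
    calc p ^ blockDefect p β ≤ p ^ 1 := Nat.pow_le_pow_right hp.pos hd1
      _ = p := pow_one p
  rw [Subgroup.eq_of_le_of_card_ge hle hge]
  exact hD

end

end Cfsg.Agent.Lib.Helper78
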