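import Cfsg.Agent.Lib.Helper81.ClassSum
import Cfsg.Agent.Lib.Helper20.ClassNilp

set_option autoImplicit false
open Cfsg
open scoped ComplexConjugate
open Cfsg.Agent.Lib.Helper20 Cfsg.Agent.Lib.Helper81

namespace Cfsg.Agent.Lib.Helper78

variable {G : Type*} [Group G] [Fintype G] [DecidableEq G] {p : ℕ} {M : Ideal AlgInt}

/-- `powCount` as a complex valued function. -/
noncomputable def powCountC (K : Finset G) (n : ℕ) : G → ℂ := fun c => (powCount K n c : ℂ)

theorem powCountC_succ (g : G) (n : ℕ) :
    powCountC (Finset.univ.filter (fun x => IsConj g x)) (n + 1)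
      = conv (classInd g) (powCountC (Finset.univ.filter (fun x => IsConj g x)) n) := by
  funext c
  simp only [powCountC, powCount_succ, conv, classInd]
  rw [Finset.sum_filter]
  push_cast
  apply Finset.sum_congr rfl; intro x _
  split_ifs <;> simp

theorem powCountC_classFunction (g : G) (n : ℕ) :
    IsClassFunction G (powCountC (Finset.univ.filter (fun x => IsConj g x)) n) := by
  induction n with
  | zero =>
    intro x h
    simp only [powCountC, powCount_zero]
    have : h * x * h⁻¹ = 1 ↔ x = 1 := by
      constructor
      · intro h1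
        have : x = h⁻¹ * (h * x * h⁻¹) * h := by group
        rw [this, h1]; group
      · rintro rfl; group
    simp only [this]
  | succ k ih =>
    rw [powCountC_succ]
    exact conv_classFunction (classInd_classFunction g) ih

theorem omega_powCountC (χ : IrrCharacter G) (g : G) (n : ℕ) :
    omega (χ : G → ℂ) (powCountC (Finset.univ.filter (fun x => IsConj g x)) n)
      = (centralChar (χ : G → ℂ) g) ^ n := by
  induction n with
  | zero =>
    have h10 := irr_one_ne_zero χ.2
    simp only [omega, powCountC, powCount_zero, pow_zero]
    rw [Finset.sum_eq_single 1]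
    · simp [h10]
    · intro b _ hb; simp [hb]
    · intro h; exact absurd (Finset.mem_univ _) h
  | succ k ih =>
    rw [powCountC_succ, omega_conv χ.2 _ _ (powCountC_classFunction g k), ih,
      omega_classInd (irr_classFunction χ), pow_succ, mul_comm]

/-- If no conjugate of `g` centralizes the normal `p`-subgroup `P`, every central character
vanishes modulo the local ideal on the class of `g`. -/
theorem centralChar_memLocalIdeal_of_not_centralizing [Fact p.Prime] (hM : IsPModular p M)
    (P : Subgroup G) [P.Normal] (hP : IsPGroup p P) (g : G)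
    (hg : ∀ x : G, IsConj g x → x ∉ Subgroup.centralizer (P : Set G)) (χ : IrrCharacter G) :
    MemLocalIdeal M (centralChar (χ : G → ℂ) g) := by
  set K : Finset G := Finset.univ.filter (fun x => IsConj g x) with hK
  obtain ⟨n, hn⟩ := exists_powCount_dvd p P hP K
    (by
      intro x hx c
      rw [hK, Finset.mem_filter] at hx ⊢
      exact ⟨Finset.mem_univ _, hx.2.trans (isConj_iff.2 ⟨c, rfl⟩)⟩)
    (by
      intro x hx
      rw [hK, Finset.mem_filter] at hx
      exact hg x hx.2)
  have hn0 : n ≠ 0 := by
    rintro rfl
    have := hn 1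
    rw [powCount_zero, if_pos rfl] at this
    exact (Fact.out : p.Prime).one_lt.ne' (Nat.dvd_one.1 this)
  rw [← memLocalIdeal_pow_iff hM (centralChar_memLocalRing hM χ g) hn0, ← omega_powCountC]
  have hp0 : p ≠ 0 := (Fact.out : p.Prime).ne_zero
  have hQ : powCountC K n = (p : ℂ) • (fun c => (((powCount K n c / p : ℕ) : ℤ) : ℂ)) := by
    funext c
    obtain ⟨m, hm⟩ := hn c
    simp only [powCountC, Pi.smul_apply, smul_eq_mul]
    rw [hm, Nat.mul_div_cancel_left _ (Nat.pos_of_ne_zero hp0)]
    push_cast; ring
  rw [hQ, omega_smul]
  apply memLocalIdeal_mul_right hM (memLocalIdeal_p hM)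
  apply memLocalRing_of_isIntegral hM
  apply omega_isIntegral χ.2 (fun c => ((powCount K n c / p : ℕ) : ℤ))
  intro x h
  have := powCountC_classFunction g n x h
  simp only [powCountC] at this
  have h2 : powCount K n (h * x * h⁻¹) = powCount K n x := by exact_mod_cast this
  simp only [h2]

end Cfsg.Agent.Lib.Helper78
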