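import Cfsg.Agent.Lib.Helper78.OddPart
import Cfsg.Agent.Lib.Helper78.RealBlock
import Cfsg.Agent.Lib.Helper19.IndFun2
import Cfsg.Agent.S0872

set_option autoImplicit false
open Cfsg
open scoped ComplexConjugate
open Cfsg.Agent.Lib.Helper20 Cfsg.Agent.Lib.Helper81 Cfsg.Agent.Lib.Helper19

namespace Cfsg.Agent.Lib.Helper78

variable {G : Type*} [Group G]

/-- The indicator function of the set of elements of odd order. -/
noncomputable def oddInd (g : G) : ℂ := if 2 ∣ orderOf g then 0 else 1

theorem oddInd_classFunction : IsClassFunction G (oddInd : G → ℂ) := by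
  intro g h
  simp only [oddInd]
  rw [show h * g * h⁻¹ = MulAut.conj h g from rfl, (MulAut.conj h).orderOf_eq g]

theorem oddInd_conj (g : G) : conj (oddInd g) = oddInd g := by
  simp only [oddInd]
  split_ifs <;> simp

variable [Fintype G]

theorem classInner_oddInd_mul_indFun (H : Subgroup G) [Fintype H] (χ : G → ℂ)
    (hχ : IsClassFunction G χ) :
    classInner (fun g => oddInd g * indFun H (fun _ => 1) g) χ
      = (Nat.card H : ℂ)⁻¹ * ∑ h : H, oddInd (h : G) * conj (χ h) := by
  have h1 : classInner (fun g => oddInd g * indFun H (fun _ => 1) g) χ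
      = classInner (indFun H (fun _ => 1)) (fun g => oddInd g * χ g) := by
    unfold classInner
    congr 1
    apply Finset.sum_congr rfl; intro g _
    rw [map_mul, oddInd_conj]; ring
  have hcl : IsClassFunction G (fun g => oddInd g * χ g) := by
    intro g h
    show oddInd _ * χ _ = oddInd g * χ g
    rw [oddInd_classFunction g h, hχ g h]
  rw [h1, frobenius_reciprocity H _ _ hcl]
  unfold classInner
  congr 1
  apply Finset.sum_congr rfl; intro h _
  rw [map_mul, oddInd_conj, one_mul]

/-- If the elements of odd order of `H` form a subgroup, `2 ^ n` times the average over `H` of a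
character on the elements of odd order is a natural number. -/
theorem two_pow_mul_avg_nat (H : Subgroup G) [Fintype H]
    (hH : ∃ L : Subgroup H, ∀ h, h ∈ L ↔ Odd (orderOf h)) (χ : G → ℂ) (hχ : IsCharacter G χ) :
    ∃ k : ℕ, (2 : ℂ) ^ (Nat.card G).factorization 2 *
      ((Nat.card H : ℂ)⁻¹ * ∑ h : H, oddInd (h : G) * conj (χ h)) = k := by
  classical
  obtain ⟨L, hL⟩ := hH
  have : Fintype L := Fintype.ofFinite L
  obtain ⟨j, hj⟩ := index_eq_two_pow_of_odd L hL
  have hcard : Nat.card L * 2 ^ j = Nat.card H := by rw [← hj]; exact L.card_mul_index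
  have hjn : j ≤ (Nat.card G).factorization 2 := by
    rw [← Nat.prime_two.pow_dvd_iff_le_factorization Nat.card_pos.ne']
    exact (Dvd.intro_left _ hcard).trans (Subgroup.card_subgroup_dvd_card H)
  have h1 : ∑ h : H, oddInd (h : G) * conj (χ h) = ∑ l : L, conj (χ ((l : H) : G)) := by
    symm
    apply Fintype.sum_of_injective (Subtype.val : L → H) Subtype.val_injective
    · intro h hh
      have h2 : h ∉ L := fun h3 => hh ⟨⟨h, h3⟩, rfl⟩
      rw [hL, Nat.not_odd_iff_even, even_iff_two_dvd, ← Subgroup.orderOf_coe] at h2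
      simp only [oddInd, if_pos h2, zero_mul]
    · intro l
      have h2 := (hL l).1 l.2
      rw [← Nat.not_even_iff_odd, even_iff_two_dvd, ← Subgroup.orderOf_coe (l : H)] at h2
      simp only [oddInd, if_neg h2, one_mul]
  obtain ⟨k, hk⟩ := isCharacter_classInner_nat' (isCharacter_one (G := L))
    (isCharacter_restrict (isCharacter_restrict hχ H) L)
  have h2 : ∑ l : L, conj (χ ((l : H) : G)) = (Nat.card L : ℂ) * k := by
    rw [← hk]
    unfold classInner
    have hL0 : (Nat.card L : ℂ) ≠ 0 := by exact_mod_cast Nat.card_pos.ne'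
    rw [← mul_assoc, mul_inv_cancel₀ hL0, one_mul]
    apply Finset.sum_congr rfl; intro l _
    rw [one_mul]
  obtain ⟨t, ht⟩ : ∃ t, (Nat.card G).factorization 2 = j + t := ⟨_, (Nat.add_sub_cancel' hjn).symm⟩
  refine ⟨2 ^ t * k, ?_⟩
  rw [h1, h2, ← hcard, ht]
  have hL0 : (Nat.card L : ℂ) ≠ 0 := by exact_mod_cast Nat.card_pos.ne'
  push_cast
  field_simp
  ring

/-- `q`-local integrality of `2 ^ n [1_{odd}, χ]`. -/
theorem exists_int_mul_alpha (q : ℕ) (hq : q.Prime) (χ : G → ℂ) (hχ : IsCharacter G χ) :
    ∃ m j : ℤ, ¬ (q : ℤ) ∣ m ∧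
      (m : ℂ) * ((2 : ℂ) ^ (Nat.card G).factorization 2 * classInner oddInd χ) = j := by
  classical
  obtain ⟨m, a, hm, ha, hsum⟩ := Cfsg.Agent.S0872.result (G := G) q hq
  have hcl := isClassFunction_of_isCharacter hχ
  have h1 : (m : ℂ) • (oddInd : G → ℂ)
      = ∑ H : Subgroup G, (a H : ℂ) • (fun g => oddInd g * indFun H (fun _ => 1) g) := by
    funext g
    have h2 := congrFun hsum g
    simp only [Finset.sum_apply, Pi.smul_apply, smul_eq_mul] at h2 ⊢
    rw [h2, Finset.sum_mul]
    apply Finset.sum_congr rfl; intro H _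
    ring
  have h2 : (m : ℂ) * classInner oddInd χ
      = ∑ H : Subgroup G, (a H : ℂ) * classInner (fun g => oddInd g * indFun H (fun _ => 1) g) χ := by
    rw [← classInner_smul_left, h1, classInner_sum_left]
    apply Finset.sum_congr rfl; intro H _
    rw [classInner_smul_left]
  have h3 : ∀ H : Subgroup G, ∃ k : ℤ, (a H : ℂ) * ((2 : ℂ) ^ (Nat.card G).factorization 2 *
      classInner (fun g => oddInd g * indFun H (fun _ => 1) g) χ) = k := by
    intro H
    by_cases haH : a H = 0
    · exact ⟨0, by rw [haH]; simp⟩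
    · obtain ⟨C, hCH, hHN, hcyc, hcop, k, hk⟩ := ha H haH
      have : Fintype H := Fintype.ofFinite H
      have hn : (C.subgroupOf H).Normal := (Subgroup.normal_subgroupOf_iff_le_normalizer hCH).2 hHN
      have hcyc' : IsCyclic (C.subgroupOf H) :=
        (Subgroup.subgroupOfEquivOfLe hCH).isCyclic.2 hcyc
      have hcop' : (Nat.card (C.subgroupOf H)).Coprime q := by
        rw [Nat.card_congr (Subgroup.subgroupOfEquivOfLe hCH).toEquiv]; exact hcop
      have hL := exists_subgroup_odd_of_quasiElementary (C.subgroupOf H) hcyc' q k hq hcop' hk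
      obtain ⟨t, ht⟩ := two_pow_mul_avg_nat H hL χ hχ
      refine ⟨a H * t, ?_⟩
      rw [classInner_oddInd_mul_indFun H χ hcl, ht]
      push_cast; ring
  choose k hk using h3
  refine ⟨m, ∑ H : Subgroup G, k H, hm, ?_⟩
  rw [mul_left_comm, h2, Finset.mul_sum]
  push_cast
  apply Finset.sum_congr rfl; intro H _
  rw [← hk H]; ring

/-- `2 ^ n [1_{odd}, χ]` is an integer: `2 ^ n` times the indicator function of the elements of odd
order is a generalized character. -/
theorem exists_int_alpha (χ : G → ℂ) (hχ : IsCharacter G χ) :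
    ∃ k : ℤ, (2 : ℂ) ^ (Nat.card G).factorization 2 * classInner oddInd χ = k :=
  exists_int_of_local _ (fun q hq => exists_int_mul_alpha q hq χ hχ)

/-- The number of elements of odd order is odd. -/
theorem card_odd_order_odd : Odd (Finset.univ.filter (fun g : G => ¬ 2 ∣ orderOf g)).card := by
  classical
  set s := Finset.univ.filter (fun g : G => ¬ 2 ∣ orderOf g) with hs
  have h1 : (1 : G) ∈ s := by
    rw [hs, Finset.mem_filter]
    refine ⟨Finset.mem_univ _, ?_⟩
    rw [orderOf_one]; decide
  have h2 : Even (s.erase 1).card := by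
    apply even_card_of_involution _ (fun x => x⁻¹)
    · intro a ha
      rw [Finset.mem_erase, hs, Finset.mem_filter] at ha ⊢
      refine ⟨by simpa using ha.1, Finset.mem_univ _, ?_⟩
      rw [orderOf_inv]; exact ha.2.2
    · intro a ha h
      rw [Finset.mem_erase, hs, Finset.mem_filter] at ha
      have h3 : a ^ 2 = 1 := by
        rw [pow_two]
        nth_rewrite 1 [← h]
        exact inv_mul_cancel a
      have h4 : orderOf a ∣ 2 := orderOf_dvd_of_pow_eq_one h3
      rcases (Nat.dvd_prime Nat.prime_two).1 h4 with h5 | h5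
      · exact ha.1 (orderOf_eq_one_iff.1 h5)
      · exact ha.2.2 (by rw [h5])
    · intro a _; exact inv_inv a
  rw [← Finset.card_erase_add_one h1]
  exact h2.add_one

theorem sum_oddInd :
    ∑ g : G, oddInd g = ((Finset.univ.filter (fun g : G => ¬ 2 ∣ orderOf g)).card : ℂ) := by
  simp only [oddInd]
  rw [Finset.card_filter]
  push_cast
  apply Finset.sum_congr rfl; intro g _
  split_ifs <;> simp_all

theorem classInner_oddInd_self : classInner (oddInd : G → ℂ) oddInd
    = (Nat.card G : ℂ)⁻¹ * ((Finset.univ.filter (fun g : G => ¬ 2 ∣ orderOf g)).card : ℂ) := by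
  rw [← sum_oddInd]
  unfold classInner
  congr 1
  apply Finset.sum_congr rfl; intro g _
  rw [oddInd_conj]
  simp only [oddInd]
  split_ifs <;> simp

/-- Parseval for the indicator function of the elements of odd order. -/
theorem sum_classInner_oddInd_sq [Fintype (IrrCharacter G)] :
    ∑ χ : IrrCharacter G, classInner oddInd (χ : G → ℂ) * conj (classInner oddInd (χ : G → ℂ))
      = classInner (oddInd : G → ℂ) oddInd := by
  have h1 := eq_sum_classInner_smul (G := G) oddInd_classFunction
  conv_rhs => lhs; rw [h1]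
  rw [classInner_sum_left]
  apply Finset.sum_congr rfl; intro χ _
  rw [classInner_smul_left, classInner_conj_symm]

/-- Every irreducible character in the principal `2`-block has nonzero inner product with the
indicator function of the elements of odd order. -/
theorem classInner_oddInd_ne_zero {M : Ideal AlgInt} (hM : IsPModular 2 M) (χ : IrrCharacter G)
    (hχ : χ ∈ principalBlock M G) : classInner oddInd (χ : G → ℂ) ≠ 0 := by
  intro h0
  have htriv : conjIrr (Helper82.trivIrr G) = Helper82.trivIrr G := by
    apply Subtype.ext; funext g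
    simp [conjIrr_apply]
  have hθ : SameBlock M (Helper82.trivIrr G : G → ℂ) (conjIrr χ : G → ℂ) := by
    have h1 : SameBlock M (Helper82.trivIrr G : G → ℂ) (χ : G → ℂ) := hχ
    have := sameBlock_conjIrr h1
    rwa [htriv] at this
  have hR : ∀ g : G, MemLocalRing M (oddInd g) := by
    intro g
    simp only [oddInd]
    split_ifs
    · exact memLocalRing_zero hM
    · exact memLocalRing_one hM
  have h1 := omega_sub_memLocalIdeal hM hθ oddInd_classFunction hR
  have h2 : omega (Helper82.trivIrr G : G → ℂ) oddInd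
      = ((Finset.univ.filter (fun g : G => ¬ 2 ∣ orderOf g)).card : ℂ) := by
    rw [← sum_oddInd]
    simp [omega]
  have h3 : omega (conjIrr χ : G → ℂ) oddInd = 0 := by
    simp only [omega, conjIrr_apply]
    rw [← Finset.sum_div]
    unfold classInner at h0
    have hG : (Nat.card G : ℂ) ≠ 0 := Helper20.card_ne_zero_complex
    rcases mul_eq_zero.1 h0 with h | h
    · exact absurd (inv_eq_zero.1 h) hG
    · rw [h, zero_div]
  rw [h2, h3, sub_zero, memLocalIdeal_natCast_iff hM] at h1
  exact (Nat.not_even_iff_odd.2 card_odd_order_odd) (even_iff_two_dvd.2 h1)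

end Cfsg.Agent.Lib.Helper78
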