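import Mathlib

set_option autoImplicit false

namespace Cfsg.Agent.Lib.Helper78

/-- `K` normal of index `q ^ j`: the elements of order prime to `q` lie in `K`. -/
theorem mem_of_index_pow_of_coprime {H : Type*} [Group H] [Finite H] (K : Subgroup H) [K.Normal]
    (q j : ℕ) (hK : K.index = q ^ j) (x : H) (hx : (orderOf x).Coprime q) : x ∈ K := by
  rw [← QuotientGroup.eq_one_iff, ← orderOf_eq_one_iff]
  have h1 : orderOf (x : H ⧸ K) ∣ orderOf x := orderOf_map_dvd (QuotientGroup.mk' K) x
  have h2 : orderOf (x : H ⧸ K) ∣ q ^ j := by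
    rw [← hK, Subgroup.index_eq_card]
    exact orderOf_dvd_natCard _
  exact Nat.eq_one_of_dvd_coprimes (hx.pow_right j) h1 h2

/-- If the centre has odd index, the elements of odd order form a subgroup. -/
theorem exists_subgroup_odd_of_center_index_odd {H : Type*} [Group H] [Finite H]
    (hZ : Odd (Subgroup.center H).index) : ∃ L : Subgroup H, ∀ h, h ∈ L ↔ Odd (orderOf h) := by
  set k := (Subgroup.center H).index with hk
  set ν := (Nat.card H).factorization 2 with hν
  set N := Nat.card H / 2 ^ ν with hN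
  have hcard : 2 ^ ν * N = Nat.card H := Nat.ordProj_mul_ordCompl_eq_self _ 2
  have hNodd : ¬ 2 ∣ N := Nat.not_dvd_ordCompl Nat.prime_two Nat.card_pos.ne'
  have hkN : k ∣ N := by
    have h1 : k ∣ 2 ^ ν * N := by rw [hcard]; exact Subgroup.index_dvd_card _
    have h2 : Nat.Coprime k (2 ^ ν) := by
      apply Nat.Coprime.pow_right
      exact (Nat.coprime_two_right).2 hZ
    exact h2.dvd_of_dvd_mul_left h1
  obtain ⟨j, hj⟩ := hkN
  let pw : Subgroup.center H →* Subgroup.center H :=
    { toFun := fun z => z ^ j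
      map_one' := one_pow j
      map_mul' := fun a b => by
        have hab : Commute a b := Subtype.ext (Subgroup.mem_center_iff.1 b.2 a)
        exact hab.mul_pow j }
  let Ψ : H →* Subgroup.center H := pw.comp (MonoidHom.transferCenterPow H)
  refine ⟨Ψ.ker, fun h => ?_⟩
  have h1 : h ∈ Ψ.ker ↔ h ^ N = 1 := by
    rw [MonoidHom.mem_ker]
    have : ((Ψ h : Subgroup.center H) : H) = h ^ N := by
      show (((MonoidHom.transferCenterPow H h) ^ j : Subgroup.center H) : H) = h ^ N
      rw [Subgroup.coe_pow, MonoidHom.transferCenterPow_apply, ← pow_mul, hj]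
    rw [← this]
    exact ⟨fun h => by rw [h]; rfl, fun h => Subtype.ext h⟩
  rw [h1, ← orderOf_dvd_iff_pow_eq_one]
  constructor
  · intro h2
    rw [← Nat.not_even_iff_odd, even_iff_two_dvd]
    exact fun h3 => hNodd (h3.trans h2)
  · intro h2
    have h3 : orderOf h ∣ 2 ^ ν * N := by rw [hcard]; exact orderOf_dvd_natCard h
    have h4 : Nat.Coprime (orderOf h) (2 ^ ν) := by
      apply Nat.Coprime.pow_right
      exact (Nat.coprime_two_right).2 h2
    exact h4.dvd_of_dvd_mul_left h3

/-- In a `q`-quasi-elementary group the elements of odd order form a subgroup. -/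
theorem exists_subgroup_odd_of_quasiElementary {H : Type*} [Group H] [Finite H] (C : Subgroup H)
    [C.Normal] (hC : IsCyclic C) (q k : ℕ) (hq : q.Prime) (hcop : (Nat.card C).Coprime q)
    (hidx : C.index = q ^ k) : ∃ L : Subgroup H, ∀ h, h ∈ L ↔ Odd (orderOf h) := by
  by_cases hq2 : q = 2
  · subst hq2
    refine ⟨C, fun h => ⟨fun hh => ?_, fun hh => ?_⟩⟩
    · have h1 : orderOf h ∣ Nat.card C := by
        have := orderOf_dvd_natCard (⟨h, hh⟩ : C)
        rwa [Subgroup.orderOf_mk] at this
      exact (Nat.coprime_two_right).1 (Nat.Coprime.coprime_dvd_left h1 hcop)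
    · exact mem_of_index_pow_of_coprime C 2 k hidx h ((Nat.coprime_two_right).2 hh)
  · apply exists_subgroup_odd_of_center_index_odd
    have : Fact (Nat.Prime 2) := ⟨Nat.prime_two⟩
    obtain ⟨S⟩ : Nonempty (Sylow 2 H) := inferInstance
    have hcop2 : Nat.Coprime 2 q := (Nat.coprime_primes Nat.prime_two hq).2 (Ne.symm hq2)
    have hS : (S : Subgroup H) ≤ Subgroup.center H := by
      intro x hx
      obtain ⟨i, hi⟩ := (IsPGroup.iff_orderOf.1 S.2) ⟨x, hx⟩
      rw [Subgroup.orderOf_mk] at hi
      have hxC : x ∈ C := mem_of_index_pow_of_coprime C q k hidx x (by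
        rw [hi]; exact Nat.Coprime.pow_left i hcop2)
      obtain ⟨c, hc⟩ := hC.exists_generator
      obtain ⟨s, hs⟩ := hc ⟨x, hxC⟩
      have hs' : (c : H) ^ s = x := by
        have := congrArg Subtype.val hs
        simpa using this
      have hnorm : (Subgroup.zpowers x).Normal := by
        constructor
        intro n hn h
        obtain ⟨t, rfl⟩ := hn
        have hcc : h * (c : H) * h⁻¹ ∈ C := Subgroup.Normal.conj_mem inferInstance _ c.2 h
        obtain ⟨r, hr⟩ := hc ⟨_, hcc⟩
        have hr' : (c : H) ^ r = h * (c : H) * h⁻¹ := by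
          have := congrArg Subtype.val hr
          simpa using this
        refine ⟨r * t, ?_⟩
        show x ^ (r * t) = h * x ^ t * h⁻¹
        rw [← conj_zpow, ← hs', ← conj_zpow, ← hr', ← zpow_mul, ← zpow_mul, ← zpow_mul]
        congr 1; ring
      rcases Nat.eq_zero_or_pos i with rfl | hipos
      · rw [pow_zero, orderOf_eq_one_iff] at hi
        rw [hi]; exact Subgroup.one_mem _
      obtain ⟨i', rfl⟩ : ∃ i', i = i' + 1 := ⟨i - 1, by omega⟩
      let φ : H →* MulAut (Subgroup.zpowers x) := MulAut.conjNormal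
      have h1 : Nat.card φ.range ∣ 2 ^ i' := by
        have h2 : Nat.card φ.range ∣ Nat.card (MulAut (Subgroup.zpowers x)) :=
          Subgroup.card_subgroup_dvd_card _
        rw [IsCyclic.card_mulAut, Nat.card_zpowers, hi,
          Nat.totient_prime_pow_succ Nat.prime_two] at h2
        simpa using h2
      have h3 : Nat.card φ.range ∣ q ^ k := by
        rw [← Subgroup.index_ker, ← hidx]
        apply Subgroup.index_dvd_of_le
        intro y hy
        rw [MonoidHom.mem_ker]
        ext ⟨n, hn⟩
        show ((MulAut.conjNormal y : MulAut (Subgroup.zpowers x)) ⟨n, hn⟩ : H) = n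
        rw [MulAut.conjNormal_apply]
        obtain ⟨t, rfl⟩ := hn
        obtain ⟨u, hu⟩ := hc ⟨y, hy⟩
        have hu' : (c : H) ^ u = y := by
          have := congrArg Subtype.val hu
          simpa using this
        show y * x ^ t * y⁻¹ = x ^ t
        rw [← hu', ← hs', ← zpow_mul, ← zpow_add, ← zpow_neg, ← zpow_add]
        congr 1; ring
      have h4 : Nat.card φ.range = 1 :=
        Nat.eq_one_of_dvd_coprimes (Nat.Coprime.pow i' k hcop2) h1 h3
      rw [Subgroup.mem_center_iff]
      intro h
      have h5 : φ h = 1 := by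
        have h6 : φ.range = ⊥ := Subgroup.card_eq_one.1 h4
        have h7 : φ h ∈ φ.range := ⟨h, rfl⟩
        rw [h6, Subgroup.mem_bot] at h7
        exact h7
      have h8 : ((φ h) ⟨x, Subgroup.mem_zpowers x⟩ : H) = x := by rw [h5]; rfl
      have h9 : h * x * h⁻¹ = x := by
        rw [← MulAut.conjNormal_apply (H := Subgroup.zpowers x) h ⟨x, Subgroup.mem_zpowers x⟩]
        exact h8
      rw [mul_inv_eq_iff_eq_mul] at h9
      exact h9
    have h1 : (Subgroup.center H).index ∣ (S : Subgroup H).index := Subgroup.index_dvd_of_le hS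
    rw [← Nat.not_even_iff_odd, even_iff_two_dvd]
    exact fun h2 => S.not_dvd_index (h2.trans h1)

/-- A subgroup consisting of all the elements of odd order has index a power of `2`. -/
theorem index_eq_two_pow_of_odd {H : Type*} [Group H] [Finite H] (L : Subgroup H)
    (hL : ∀ h, h ∈ L ↔ Odd (orderOf h)) : ∃ j, L.index = 2 ^ j := by
  have hn : L.Normal := by
    constructor
    intro n hn g
    rw [hL] at hn ⊢
    rwa [show g * n * g⁻¹ = MulAut.conj g n from rfl, (MulAut.conj g).orderOf_eq n]
  have hp : IsPGroup 2 (H ⧸ L) := by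
    intro x
    obtain ⟨h, rfl⟩ := QuotientGroup.mk_surjective x
    refine ⟨(Nat.card H).factorization 2, ?_⟩
    rw [← QuotientGroup.mk_pow, QuotientGroup.eq_one_iff, hL]
    set ν := (Nat.card H).factorization 2 with hν
    set N := Nat.card H / 2 ^ ν with hN
    have hcard : 2 ^ ν * N = Nat.card H := Nat.ordProj_mul_ordCompl_eq_self _ 2
    have hNodd : ¬ 2 ∣ N := Nat.not_dvd_ordCompl Nat.prime_two Nat.card_pos.ne'
    have h1 : orderOf (h ^ 2 ^ ν) ∣ N := by
      apply orderOf_dvd_of_pow_eq_one
      rw [← pow_mul, hcard, pow_card_eq_one']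
    rw [← Nat.not_even_iff_odd, even_iff_two_dvd]
    exact fun h3 => hNodd (h3.trans h1)
  have : Fact (Nat.Prime 2) := ⟨Nat.prime_two⟩
  obtain ⟨j, hj⟩ := IsPGroup.iff_card.1 hp
  exact ⟨j, by rw [Subgroup.index_eq_card, hj]⟩

/-- A complex number with, for every prime `q`, an integer multiple by a number prime to `q` which is
an integer, is an integer. -/
theorem exists_int_of_local (α : ℂ)
    (h : ∀ q : ℕ, q.Prime → ∃ m j : ℤ, ¬ (q : ℤ) ∣ m ∧ (m : ℂ) * α = j) : ∃ k : ℤ, α = k := by
  obtain ⟨m₂, j₂, hm₂, h₂⟩ := h 2 Nat.prime_two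
  have hm0 : m₂ ≠ 0 := by rintro rfl; exact hm₂ (dvd_zero _)
  set r : ℚ := (j₂ : ℚ) / m₂ with hr
  have hα : α = (r : ℂ) := by
    have : (m₂ : ℂ) ≠ 0 := by exact_mod_cast hm0
    rw [hr]; push_cast
    field_simp
    rw [mul_comm]; exact h₂
  have hden : r.den = 1 := by
    by_contra hne
    obtain ⟨q, hq, hqd⟩ := Nat.exists_prime_and_dvd hne
    obtain ⟨m, j, hm, hmj⟩ := h q hq
    have h1 : (m : ℚ) * r = j := by
      rw [hα] at hmj
      exact_mod_cast hmj
    have h2 : m * r.num = j * r.den := by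
      have h3 : (r.den : ℚ) ≠ 0 := by exact_mod_cast r.den_nz
      have h4 : r = r.num / r.den := (Rat.num_div_den r).symm
      rw [h4] at h1
      field_simp at h1
      rw [mul_comm j]
      exact_mod_cast h1
    have h5 : (q : ℤ) ∣ m * r.num := by
      rw [h2]
      exact Dvd.dvd.mul_left (by exact_mod_cast hqd) j
    rcases (Nat.prime_iff_prime_int.1 hq).dvd_or_dvd h5 with h6 | h6
    · exact hm h6
    · have h7 : q ∣ r.num.natAbs := Int.natCast_dvd.1 h6
      have h8 := Nat.dvd_gcd h7 hqd
      rw [r.reduced] at h8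
      exact hq.one_lt.ne' (Nat.dvd_one.1 h8)
  refine ⟨r.num, ?_⟩
  rw [hα]
  have := Rat.coe_int_num_of_den_eq_one hden
  rw [← this]
  simp

end Cfsg.Agent.Lib.Helper78
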