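import Mathlib
import Cfsg.Agent.Lib.Helper25.DefOneC
import Cfsg.Agent.Lib.Helper79.GaloisChar

/-!
# Blocks of defect one: the action of field automorphisms on the abstract shape
-/

set_option autoImplicit false
set_option linter.unusedSectionVars false
open Cfsg

namespace Cfsg.Agent.Lib.Helper78

open Cfsg.Agent.Lib.Helper25

/-- the conjugate of an irreducible character under a field automorphism -/
noncomputable def galIrr {G : Type*} [Group G] (σ : ℂ ≃+* ℂ) (χ : IrrCharacter G) :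
    IrrCharacter G :=
  ⟨fun g => σ ((χ : G → ℂ) g), Cfsg.Agent.Lib.Helper79.IsIrrCharacter.ringEquiv_comp σ χ.2⟩

theorem galIrr_apply {G : Type*} [Group G] (σ : ℂ ≃+* ℂ) (χ : IrrCharacter G) (g : G) :
    (galIrr σ χ : G → ℂ) g = σ ((χ : G → ℂ) g) := rfl

theorem galIrr_symm {G : Type*} [Group G] (σ : ℂ ≃+* ℂ) (χ : IrrCharacter G) :
    galIrr σ.symm (galIrr σ χ) = χ := by
  apply Subtype.ext
  funext g
  simp [galIrr]

section

variable {G : Type*} [Group G] [Fintype G] [Fintype (IrrCharacter G)]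

open Classical in
theorem cshape_gal_fix_X {p e : ℕ} {Ξ : Type*} {R : Ξ → Ξ → Prop} (hR : Equivalence R)
    {k : Ξ → IrrCharacter G → ℤ} {B X Y : Set (IrrCharacter G)} {a : IrrCharacter G → ℤ} {ε : ℤ}
    (hs : CShape p e R k B X Y a ε) [Nonempty Ξ]
    (hF1 : ∀ ξ χ, k ξ χ ≠ 0 → χ ∈ B) (hcrux : e ≤ blockRank p B)
    (σ : ℂ ≃+* ℂ) (H1 : ∀ ξ, ∃ ξ', ∀ χ, k ξ (galIrr σ χ) = k ξ' χ)
    (H3 : ∀ χ : IrrCharacter G, ∀ g : G, ¬ p ∣ orderOf g → σ ((χ : G → ℂ) g) = (χ : G → ℂ) g)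
    (χ : IrrCharacter G) (hχ : χ ∈ X) : galIrr σ χ = χ := by
  obtain ⟨ψ, hψdef⟩ : ∃ ψ, ψ = galIrr σ χ := ⟨_, rfl⟩
  rw [← hψdef]
  have hcol : ∀ ξ, k ξ ψ = a χ := by
    intro ξ
    obtain ⟨ξ', h⟩ := H1 ξ
    rw [hψdef, h χ, hs.colX χ hχ ξ']
  have ha : a χ ≠ 0 := by
    rcases hs.sign χ hχ with h | h <;> rw [h] <;> norm_num
  have hag : ∀ g : G, ¬ p ∣ orderOf g → (ψ : G → ℂ) g = (χ : G → ℂ) g := by
    intro g hg
    rw [hψdef]
    exact H3 χ g hg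
  obtain ⟨ξ₀⟩ : Nonempty Ξ := inferInstance
  have hψB : ψ ∈ B := hF1 ξ₀ ψ (by rw [hcol]; exact ha)
  rw [hs.union] at hψB
  rcases hψB with hψ | hψ
  · exact hs.inj ψ hψ χ hχ hag
  · exfalso
    obtain ⟨ξ₁, h1⟩ := hs.colY ψ hψ
    have h2 : a χ = -ε := by
      rw [← hcol ξ₁, h1 ξ₁, if_pos (hR.refl _)]
    have hε0 : (ε : ℂ) ≠ 0 := by
      rcases hs.eps with h | h <;> rw [h] <;> norm_num
    -- the spanning family
    set F : Finset (IrrCharacter G) := X.toFinset.erase χ with hF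
    have hXc : X.toFinset.card = e := by
      rw [Set.toFinset_card, ← Nat.card_eq_fintype_card, hs.cardX]
    have hχF : χ ∈ X.toFinset := Set.mem_toFinset.2 hχ
    have hFc : F.card = e - 1 := by
      rw [hF, Finset.card_erase_of_mem hχF, hXc]
    have he0 : 0 < e := by
      rw [← hXc]; exact Finset.card_pos.2 ⟨χ, hχF⟩
    set S := Submodule.span ℂ
      ((fun χ : IrrCharacter G => pRegularPart p (χ : G → ℂ)) '' (F : Set (IrrCharacter G))) with hS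
    have hmemF : ∀ φ ∈ F, pRegularPart p (φ : G → ℂ) ∈ S := fun φ hφ =>
      Submodule.subset_span ⟨φ, Finset.mem_coe.2 hφ, rfl⟩
    have hχS : pRegularPart p (χ : G → ℂ) ∈ S := by
      have h3 : pRegularPart p (χ : G → ℂ)
          = (2 * (ε : ℂ))⁻¹ • ∑ φ ∈ F, (a φ : ℂ) • pRegularPart p (φ : G → ℂ) := by
        funext g
        rw [Pi.smul_apply, Finset.sum_apply, smul_eq_mul]
        by_cases hg : p ∣ orderOf g
        · rw [pReg_neg' _ hg]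
          symm
          apply mul_eq_zero_of_right
          apply Finset.sum_eq_zero
          intro φ _
          rw [Pi.smul_apply, pReg_neg' _ hg, smul_zero]
        · rw [pReg_pos' _ hg]
          have h4 := hs.rel ψ hψ g hg
          rw [hag g hg, ← Set.coe_toFinset X, finsum_mem_coe_finset,
            ← Finset.add_sum_erase _ _ hχF, h2] at h4
          have h5 : ∑ φ ∈ F, ((a φ : ℂ) • pRegularPart p (φ : G → ℂ)) g
              = ∑ φ ∈ X.toFinset.erase χ, (a φ : ℂ) * (φ : G → ℂ) g := by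
            apply Finset.sum_congr rfl
            intro φ _
            rw [Pi.smul_apply, pReg_pos' _ hg, smul_eq_mul]
          rw [h5]
          have h6 : ∑ φ ∈ X.toFinset.erase χ, (a φ : ℂ) * (φ : G → ℂ) g
              = 2 * (ε : ℂ) * (χ : G → ℂ) g := by
            push_cast at h4
            linear_combination -h4
          rw [h6]
          field_simp
      rw [h3]
      exact S.smul_mem _ (S.sum_mem (fun φ hφ => S.smul_mem _ (hmemF φ hφ)))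
    have hrank : blockRank p B ≤ F.card := by
      apply blockRank_le_card
      intro φ hφ
      rw [hs.union] at hφ
      rcases hφ with hφ | hφ
      · by_cases hφχ : φ = χ
        · rw [hφχ]; exact hχS
        · exact hmemF φ (Finset.mem_erase.2 ⟨hφχ, Set.mem_toFinset.2 hφ⟩)
      · have h7 : pRegularPart p (φ : G → ℂ) = pRegularPart p (χ : G → ℂ) := by
          funext g
          by_cases hg : p ∣ orderOf g
          · rw [pReg_neg' _ hg, pReg_neg' _ hg]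
          · rw [pReg_pos' _ hg, pReg_pos' _ hg, hs.agree φ hφ ψ hψ g hg, hag g hg]
        rw [h7]; exact hχS
    omega

open Classical in
/-- the action of a group of field automorphisms on a block of defect one -/
theorem cshape_gal {p e : ℕ} {Ξ : Type*} {R : Ξ → Ξ → Prop} (hR : Equivalence R)
    {k : Ξ → IrrCharacter G → ℤ} {B X Y : Set (IrrCharacter G)} {a : IrrCharacter G → ℤ} {ε : ℤ}
    (hs : CShape p e R k B X Y a ε) [Nonempty Ξ]
    (hF1 : ∀ ξ χ, k ξ χ ≠ 0 → χ ∈ B) (hcrux : e ≤ blockRank p B)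
    (𝒢 : Set (ℂ ≃+* ℂ)) (hinv : ∀ σ ∈ 𝒢, σ.symm ∈ 𝒢)
    (H1 : ∀ σ ∈ 𝒢, ∀ ξ, ∃ ξ', ∀ χ, k ξ (galIrr σ χ) = k ξ' χ)
    (H2 : ∀ ξ ξ', ∃ σ ∈ 𝒢, ∀ χ, k ξ' (galIrr σ χ) = k ξ χ)
    (H3 : ∀ σ ∈ 𝒢, ∀ χ : IrrCharacter G, ∀ g : G, ¬ p ∣ orderOf g →
      σ ((χ : G → ℂ) g) = (χ : G → ℂ) g) :
    (∀ χ ∈ X, ∀ σ ∈ 𝒢, galIrr σ χ = χ) ∧ (∀ θ ∈ Y, ∀ σ ∈ 𝒢, galIrr σ θ ∈ Y) ∧
      (∀ θ ∈ Y, ∀ θ' ∈ Y, ∃ σ ∈ 𝒢, galIrr σ θ = θ') := by
  have hε0 : -ε ≠ 0 := by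
    rcases hs.eps with h | h <;> rw [h] <;> norm_num
  have P1 : ∀ χ ∈ X, ∀ σ ∈ 𝒢, galIrr σ χ = χ := fun χ hχ σ hσ =>
    cshape_gal_fix_X hR hs hF1 hcrux σ (H1 σ hσ) (H3 σ hσ) χ hχ
  have P2 : ∀ θ ∈ Y, ∀ σ ∈ 𝒢, galIrr σ θ ∈ Y := by
    intro θ hθ σ hσ
    obtain ⟨ξ₀, h0⟩ := hs.colY θ hθ
    obtain ⟨ξ', h1⟩ := H1 σ.symm (hinv σ hσ) ξ₀
    have h2 := h1 (galIrr σ θ)
    rw [galIrr_symm, h0 ξ₀, if_pos (hR.refl _)] at h2
    have hB : galIrr σ θ ∈ B := hF1 ξ' _ (by rw [← h2]; exact hε0)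
    rw [hs.union] at hB
    rcases hB with h | h
    · exfalso
      have h3 := P1 _ h σ.symm (hinv σ hσ)
      rw [galIrr_symm] at h3
      rw [← h3] at h
      exact Set.disjoint_left.1 hs.disj h hθ
    · exact h
  refine ⟨P1, P2, ?_⟩
  intro θ hθ θ' hθ'
  obtain ⟨ξ₀, h0⟩ := hs.colY θ hθ
  obtain ⟨ξ₀', h0'⟩ := hs.colY θ' hθ'
  obtain ⟨σ, hσ, h1⟩ := H2 ξ₀ ξ₀'
  refine ⟨σ, hσ, ?_⟩
  have hψ := P2 θ hθ σ hσ
  obtain ⟨ξ₁, h2⟩ := hs.colY _ hψ
  have h3 : R ξ₁ ξ₀' := by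
    by_contra hn
    have h4 := h2 ξ₀'
    rw [if_neg hn, h1 θ, h0 ξ₀, if_pos (hR.refl _)] at h4
    exact hε0 h4
  apply hs.injY _ hψ θ' hθ'
  intro ξ
  rw [h2 ξ, h0' ξ]
  have h5 : R ξ₁ ξ ↔ R ξ₀' ξ := ⟨fun h => hR.trans (hR.symm h3) h, fun h => hR.trans h3 h⟩
  simp only [h5]

end

end Cfsg.Agent.Lib.Helper78
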