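import Mathlib
import Cfsg.Agent.Lib.Helper25.DefOneL
import Cfsg.Agent.Lib.Helper78.PConjShape

/-!
# Blocks of defect one: the action of field automorphisms on the columns
-/

set_option autoImplicit false
set_option linter.unusedSectionVars false
open Cfsg
open scoped ComplexConjugate

namespace Cfsg.Agent.Lib.Helper78

open Cfsg.Agent.Lib.Helper25 Cfsg.Agent.Lib.Helper98.BL Cfsg.Agent.Lib.Helper20

/-- field automorphisms commute with the inner product of characters -/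
theorem gal_classInner {H : Type*} [Group H] [Fintype H] (σ : ℂ ≃+* ℂ) (α β : H → ℂ)
    (hβ : IsCharacter H β) :
    σ (classInner α β) = classInner (fun h => σ (α h)) (fun h => σ (β h)) := by
  have hβ' : IsCharacter H (fun h => σ (β h)) :=
    Cfsg.Agent.Lib.Helper79.IsCharacter.ringHom_comp (σ : ℂ →+* ℂ) hβ
  unfold classInner
  rw [map_mul, map_inv₀, map_natCast, map_sum]
  congr 1
  apply Finset.sum_congr rfl
  intro h _
  rw [map_mul, ← isCharacter_inv hβ h, ← isCharacter_inv hβ' h]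

/-- an automorphism fixing a primitive `n`-th root of unity fixes the character values at the
elements of exponent `n` -/
theorem gal_fix_of_pow {H : Type*} [Group H] (σ : ℂ ≃+* ℂ) {n : ℕ} (hn : 0 < n) {ζ : ℂ}
    (hζ : IsPrimitiveRoot ζ n) (hσ : σ ζ = ζ) {χ : H → ℂ} (hχ : IsCharacter H χ) (h : H)
    (hh : h ^ n = 1) : σ (χ h) = χ h := by
  have hz : ∀ z : ℂ, z ^ n = 1 → (σ : ℂ →+* ℂ) z = z ^ 1 := by
    intro z hz
    have : NeZero n := ⟨hn.ne'⟩
    obtain ⟨i, _, rfl⟩ := hζ.eq_pow_of_pow_eq_one hz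
    simp [hσ]
  have := Cfsg.Agent.Lib.Helper79.IsCharacter.ringHom_apply hχ n 1 hn (σ : ℂ →+* ℂ) hz h hh
  simpa using this

theorem pow_ordCompl_eq_one {H : Type*} [Group H] {p : ℕ} (hp : p.Prime) (n : ℕ)
    (h : H) (hn : orderOf h ∣ n) (hh : ¬ p ∣ orderOf h) :
    h ^ (n / p ^ n.factorization p) = 1 := by
  rw [← orderOf_dvd_iff_pow_eq_one]
  have h1 : orderOf h ∣ p ^ n.factorization p * (n / p ^ n.factorization p) := by
    rw [Nat.ordProj_mul_ordCompl_eq_self]; exact hn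
  have h2 : (orderOf h).Coprime (p ^ n.factorization p) :=
    Nat.Coprime.pow_right _ ((Nat.Prime.coprime_iff_not_dvd hp).2 hh).symm
  exact h2.dvd_of_dvd_mul_left h1

universe u

variable {G : Type u} [Group G] {D : Data G}

/-- the action on the dual group -/
noncomputable def galX (σ : ℂ ≃+* ℂ) (κ : D.X) : D.X :=
  (Units.map ((σ : ℂ →+* ℂ) : ℂ →* ℂ)).comp κ

theorem galX_apply (σ : ℂ ≃+* ℂ) (κ : D.X) (z : D.Z) :
    ((galX σ κ z : ℂˣ) : ℂ) = σ ((κ z : ℂˣ) : ℂ) := rfl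

theorem galX_symm (σ : ℂ ≃+* ℂ) (κ : D.X) : galX σ (galX σ.symm κ) = κ := by
  ext z
  rw [galX_apply, galX_apply]
  simp

theorem galX_ne_one (σ : ℂ ≃+* ℂ) {κ : D.X} (hκ : κ ≠ 1) : galX σ κ ≠ 1 := by
  intro h
  apply hκ
  ext z
  have h1 := galX_apply σ κ z
  rw [h] at h1
  simp only [MonoidHom.one_apply, Units.val_one] at h1 ⊢
  have h2 : σ ((κ z : ℂˣ) : ℂ) = σ 1 := by rw [← h1, map_one]
  exact σ.injective h2

theorem gal_zk (σ : ℂ ≃+* ℂ) (θ : D.C → ℂ) (κ : D.X) :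
    (fun c => σ (D.zk θ κ c)) = D.zk (fun c => σ (θ c)) (galX σ κ) := by
  funext c
  rw [Data.zk_apply, Data.zk_apply, map_mul]
  rfl

section

variable [Fintype G] [Fintype D.C] [Fintype D.N] {p : ℕ} [Fact p.Prime]

theorem gal_theta (E : DExtra D p) (σ : ℂ ≃+* ℂ) {ζ : ℂ}
    (hζ : IsPrimitiveRoot ζ (Nat.card G / p ^ (Nat.card G).factorization p)) (hσ : σ ζ = ζ)
    {θ : D.C → ℂ} (hθ : IsIrrCharacter D.C θ) (hθP : D.PTriv θ) :
    (fun c => σ (θ c)) = θ := by
  have hp : p.Prime := Fact.out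
  have hn : 0 < Nat.card G / p ^ (Nat.card G).factorization p :=
    Nat.div_pos (Nat.le_of_dvd Nat.card_pos (Nat.ordProj_dvd _ _)) (pow_pos hp.pos _)
  funext c
  obtain ⟨k, hk⟩ : ∃ k : D.C, k = (D.inZ (D.r c))⁻¹ * c := ⟨_, rfl⟩
  have hk1 : D.r k = 1 := by rw [hk, map_mul, map_inv, D.r_inZ]; simp
  have hc : c = D.inZ (D.r c) * k := by rw [hk]; group
  have h1 : θ c = θ k := by
    conv_lhs => rw [hc]
    exact pTriv_mul hθ hθP _ _
  rw [h1]
  apply gal_fix_of_pow σ hn hζ hσ (isCharacter_of_isIrrCharacter hθ)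
  apply pow_ordCompl_eq_one hp
  · exact (orderOf_dvd_natCard k).trans (Subgroup.card_subgroup_dvd_card _)
  · exact (E.hreg k).1 hk1

theorem kcol_gal (σ : ℂ ≃+* ℂ) {θ : D.C → ℂ} (hθ : IsIrrCharacter D.C θ)
    (hσθ : (fun c => σ (θ c)) = θ) (κ : D.X) (χ : IrrCharacter G) :
    kcol D θ (galX σ κ) (galIrr σ χ) = kcol D θ κ χ := by
  have h1 := kcol_eq_mm D hθ (galX σ κ) (galIrr σ χ)
  have h2 := kcol_eq_mm D hθ κ χ
  have h3 : D.mm (galIrr σ χ) θ = σ (D.mm χ θ) := by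
    unfold Data.mm
    rw [gal_classInner σ _ _ (isCharacter_of_isIrrCharacter hθ), hσθ]
    rfl
  have h4 : D.mm (galIrr σ χ) (D.zk θ (galX σ κ)) = σ (D.mm χ (D.zk θ κ)) := by
    unfold Data.mm
    rw [gal_classInner σ _ _ (isCharacter_of_isIrrCharacter (D.isIrr_zk hθ κ)), gal_zk, hσθ]
    rfl
  rw [h3, h4, ← map_sub, ← h2, map_intCast] at h1
  exact_mod_cast h1

end

theorem exists_pow_eq_of_prime_card {A : Type*} [Group A] {p : ℕ} [Fact p.Prime]
    (h : Nat.card A = p) {x y : A} (hx : x ≠ 1) (hy : y ≠ 1) :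
    ∃ j : ℕ, ¬ p ∣ j ∧ x ^ j = y ∧ x ^ p = 1 := by
  obtain ⟨j, hj⟩ := mem_powers_of_prime_card h hx (g' := y)
  have hj : x ^ j = y := hj
  have hxp : x ^ p = 1 := by
    have := pow_card_eq_one' (x := x)
    rwa [h] at this
  refine ⟨j, ?_, hj, hxp⟩
  rintro ⟨i, rfl⟩
  apply hy
  rw [← hj, pow_mul, hxp, one_pow]

/-- transitivity on the nontrivial linear characters of a group of prime order -/
theorem exists_gal_trans [Finite G] {p : ℕ} [Fact p.Prime] (hZ : Nat.card D.Z = p)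
    {κ κ' : D.X} (hκ : κ ≠ 1) (hκ' : κ' ≠ 1) :
    ∃ σ : ℂ ≃+* ℂ, σ (Complex.exp (2 * Real.pi * Complex.I /
        ((Nat.card G / p ^ (Nat.card G).factorization p : ℕ) : ℂ)))
      = Complex.exp (2 * Real.pi * Complex.I /
        ((Nat.card G / p ^ (Nat.card G).factorization p : ℕ) : ℂ)) ∧ galX σ κ = κ' := by
  have hp : p.Prime := Fact.out
  obtain ⟨n, hn⟩ : ∃ n, n = Nat.card G / p ^ (Nat.card G).factorization p := ⟨_, rfl⟩
  rw [← hn]
  have hn0 : 0 < n := by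
    rw [hn]
    exact Nat.div_pos (Nat.le_of_dvd Nat.card_pos (Nat.ordProj_dvd _ _)) (pow_pos hp.pos _)
  have hg : Nat.card G = p ^ (Nat.card G).factorization p * n := by
    rw [hn, Nat.ordProj_mul_ordCompl_eq_self]
  have hcop : p.Coprime n := by
    rw [hn]; exact Nat.coprime_ordCompl hp Nat.card_pos.ne'
  have hXc : Nat.card D.X = p := by
    rw [Cfsg.Agent.Lib.Helper46.card_hom (Z_comm D), hZ]
  obtain ⟨j, hpj, hj, hκp⟩ := exists_pow_eq_of_prime_card hXc hκ hκ'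
  obtain ⟨k, hk1, hk2⟩ := Nat.chineseRemainder hcop j 1
  have hkp : k.Coprime p := by
    rw [Nat.coprime_comm, Nat.Prime.coprime_iff_not_dvd hp]
    intro h
    exact hpj ((Nat.ModEq.dvd_iff hk1 dvd_rfl).1 h)
  have hkn : k.Coprime n := by
    have h1 : Nat.gcd k n = Nat.gcd 1 n := Nat.ModEq.gcd_eq hk2
    rw [Nat.Coprime, h1, Nat.gcd_one_left]
  have hkg : k.Coprime (Nat.card G) := by
    rw [hg]
    exact Nat.Coprime.mul_right (Nat.Coprime.pow_right _ hkp) hkn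
  obtain ⟨τ, hτ⟩ := Cfsg.Agent.Lib.Helper79.exists_ringAut_pow (Nat.card G) k Nat.card_pos hkg
  have hζ : IsPrimitiveRoot (Complex.exp (2 * Real.pi * Complex.I / (n : ℂ))) n :=
    Complex.isPrimitiveRoot_exp _ hn0.ne'
  refine ⟨τ, ?_, ?_⟩
  · have hg' : Nat.card G = n * p ^ (Nat.card G).factorization p := by rw [mul_comm]; exact hg
    rw [hτ _ (by rw [hg', pow_mul, hζ.pow_eq_one, one_pow])]
    have h1 : k % n = 1 % n := hk2
    rw [← Nat.div_add_mod k n, pow_add, pow_mul, hζ.pow_eq_one, one_pow, one_mul, h1]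
    rcases Nat.lt_or_ge 1 n with h | h
    · rw [Nat.mod_eq_of_lt h, pow_one]
    · have hn1 : n = 1 := by omega
      have := hζ.pow_eq_one
      rw [hn1] at this ⊢
      simp
  · rw [← hj]
    ext z
    rw [galX_apply]
    have hzp : (((κ z : ℂˣ) : ℂ)) ^ p = 1 := by
      have h1 : (κ ^ p) z = 1 := by rw [hκp]; rfl
      rw [MonoidHom.pow_apply] at h1
      have := congrArg (fun u : ℂˣ => (u : ℂ)) h1
      simpa using this
    have hpg : p ∣ Nat.card G := by
      rw [← hZ]; exact Subgroup.card_subgroup_dvd_card _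
    obtain ⟨m, hm⟩ := hpg
    rw [hτ _ (by rw [hm, pow_mul, hzp, one_pow]), MonoidHom.pow_apply, Units.val_pow_eq_pow_val]
    have h1 : k % p = j % p := hk1
    rw [← Nat.div_add_mod k p, ← Nat.div_add_mod j p, pow_add, pow_add, pow_mul, pow_mul, hzp,
      one_pow, one_pow, h1]

end Cfsg.Agent.Lib.Helper78
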