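import Mathlib
import Cfsg.Agent.Lib.Helper78.PConjData

/-!
# Blocks of defect one: `p`-conjugate characters, in terms of the data
-/

set_option autoImplicit false
set_option linter.unusedSectionVars false
open Cfsg
open scoped ComplexConjugate

namespace Cfsg.Agent.Lib.Helper78

open Cfsg.Agent.Lib.Helper25 Cfsg.Agent.Lib.Helper98.BL Cfsg.Agent.Lib.Helper20

universe u

variable {G : Type u} [Group G] {D : Data G} {p : ℕ} [Fact p.Prime]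
  {M : Ideal AlgInt} [Fintype G] [Fintype D.C] [Fintype D.N] [Fintype D.X]
  [Fintype (IrrCharacter D.C)] [Fintype (IrrCharacter G)]
  {B : Set (IrrCharacter G)} {θ : IrrCharacter D.C}

open Classical in
theorem bctx_pconj (h : BCtx D p M B θ) (e : ℕ)
    (he : Nat.card {x : D.N // (θ : D.C → ℂ) ∘ D.cj x = θ} = e * Nat.card D.C)
    (hcrux : e ≤ blockRank p B) :
    ∃ Y : Set (Cfsg.IrrCharacter G), Y ⊆ B ∧ Y.Nonempty ∧ (∀ θ ∈ Y, ∀ ψ : Cfsg.IrrCharacter G, (∃ σ : ℂ ≃+* ℂ, σ (Complex.exp (2 * Real.pi * Complex.I / ((Nat.card G / p ^ (Nat.card G).factorization p) : ℕ))) = Complex.exp (2 * Real.pi * Complex.I / ((Nat.card G / p ^ (Nat.card G).factorization p) : ℕ)) ∧ (ψ : G → ℂ) = fun g => σ ((θ : G → ℂ) g)) ↔ ψ ∈ Y) ∧ (∀ χ ∈ B, χ ∉ Y → ∀ ψ : Cfsg.IrrCharacter G, (∃ σ : ℂ ≃+* ℂ, σ (Complex.exp (2 * Real.pi * Complex.I / ((Nat.card G / p ^ (Nat.card G).factorization p) :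 ℕ))) = Complex.exp (2 * Real.pi * Complex.I / ((Nat.card G / p ^ (Nat.card G).factorization p) : ℕ)) ∧ (ψ : G → ℂ) = fun g => σ ((χ : G → ℂ) g)) → ψ = χ) ∧ Nat.card Y ∣ p - 1 ∧ Nat.card B = Nat.card Y + (p - 1) / Nat.card Y ∧ ∃ δ : Cfsg.IrrCharacter G → ℤ, (∀ χ ∈ B, δ χ = 1 ∨ δ χ = -1) ∧ ∀ x : G, ¬ p ∣ orderOf x → ∀ θ ∈ Y, (∑ᶠ χ ∈ B \ Y, (δ χ : ℂ) * (χ : G → ℂ) x) + (δ θ : ℂ) * (θ : G → ℂ) x = 0 := by
  have hp : p.Prime := Fact.out
  have hp1 : 1 < p := hp.one_lt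
  obtain ⟨X, Y, a, ε, hs⟩ := h.cshape e he hcrux
  obtain ⟨n, hn⟩ : ∃ n, n = Nat.card G / p ^ (Nat.card G).factorization p := ⟨_, rfl⟩
  rw [← hn]
  have hn0 : 0 < n := by
    rw [hn]
    exact Nat.div_pos (Nat.le_of_dvd Nat.card_pos (Nat.ordProj_dvd _ _)) (pow_pos hp.pos _)
  obtain ⟨ζ, hζdef⟩ : ∃ ζ : ℂ, ζ = Complex.exp (2 * Real.pi * Complex.I / (n : ℕ)) := ⟨_, rfl⟩
  rw [← hζdef]
  have hζ : IsPrimitiveRoot ζ n := by
    rw [hζdef]; exact Complex.isPrimitiveRoot_exp n hn0.ne'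
  have he0 : 0 < e := by
    rcases Nat.eq_zero_or_pos e with h0 | h0
    · have h1 := hs.dvd
      rw [h0, zero_dvd_iff] at h1
      omega
    · exact h0
  have hYpos : 0 < (p - 1) / e :=
    Nat.div_pos (Nat.le_of_dvd (by omega) hs.dvd) he0
  have hYne : Y.Nonempty := by
    have h1 : 0 < Nat.card Y := by rw [hs.cardY]; exact hYpos
    obtain ⟨y⟩ := (Nat.card_pos_iff.1 h1).1
    exact ⟨y.1, y.2⟩
  have hΞ : Nonempty {κ : D.X // κ ≠ 1} := by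
    obtain ⟨y, hy⟩ := hYne
    obtain ⟨ξ₀, -⟩ := hs.colY y hy
    exact ⟨ξ₀⟩
  have hR : Equivalence (relX D θ) :=
    ⟨fun κ => Data.Cj.refl _ _, fun h => h.symm, fun h h' => cj_trans h h'⟩
  have hσθ : ∀ σ : ℂ ≃+* ℂ, σ ζ = ζ → (fun c => σ ((θ : D.C → ℂ) c)) = θ := by
    intro σ hσ
    exact gal_theta h.E σ (hn ▸ hζ) hσ θ.2 h.hθP
  obtain ⟨P1, P2, P3⟩ := cshape_gal hR hs (fun ξ χ hne => h.mem_of_kcol_ne ξ.1 χ hne) hcrux
    {σ : ℂ ≃+* ℂ | σ ζ = ζ}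
    (by
      intro σ hσ
      show σ.symm ζ = ζ
      rw [RingEquiv.symm_apply_eq]
      exact (show σ ζ = ζ from hσ).symm)
    (by
      intro σ hσ ξ
      refine ⟨⟨galX σ.symm ξ.1, galX_ne_one _ ξ.2⟩, ?_⟩
      intro χ
      have h1 := kcol_gal σ θ.2 (hσθ σ hσ) (galX σ.symm ξ.1) χ
      rw [galX_symm] at h1
      exact h1)
    (by
      intro ξ ξ'
      obtain ⟨σ, hσ, h1⟩ := exists_gal_trans h.E.cardZ ξ.2 ξ'.2
      rw [← hn, ← hζdef] at hσ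
      refine ⟨σ, hσ, ?_⟩
      intro χ
      show kcol D θ ξ'.1 (galIrr σ χ) = kcol D θ ξ.1 χ
      rw [← h1]
      exact kcol_gal σ θ.2 (hσθ σ hσ) ξ.1 χ)
    (by
      intro σ hσ χ g hg
      apply gal_fix_of_pow σ hn0 hζ hσ (isCharacter_of_isIrrCharacter χ.2)
      rw [hn]
      exact pow_ordCompl_eq_one hp _ g (orderOf_dvd_natCard g) hg)
  have hBY : B \ Y = X := by
    rw [hs.union, Set.union_sdiff_right]
    exact hs.disj.sdiff_eq_left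
  refine ⟨Y, by rw [hs.union]; exact Set.subset_union_right, hYne, ?_, ?_, ?_, ?_, ?_⟩
  · intro θ' hθ' ψ
    constructor
    · rintro ⟨σ, hσ, hψ⟩
      have h1 : ψ = galIrr σ θ' := Subtype.ext hψ
      rw [h1]
      exact P2 θ' hθ' σ hσ
    · intro hψ
      obtain ⟨σ, hσ, h1⟩ := P3 θ' hθ' ψ hψ
      exact ⟨σ, hσ, by rw [← h1]; rfl⟩
  · rintro χ hχ hχY ψ ⟨σ, hσ, hψ⟩
    have hχX : χ ∈ X := by rw [← hBY]; exact ⟨hχ, hχY⟩
    have h1 : ψ = galIrr σ χ := Subtype.ext hψ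
    rw [h1]
    exact P1 χ hχX σ hσ
  · rw [hs.cardY]
    exact Nat.div_dvd_of_dvd hs.dvd
  · rw [hs.cardY, Nat.div_div_self hs.dvd (by omega), hs.union, Nat.card_coe_set_eq,
      Set.ncard_union_eq hs.disj (Set.toFinite _) (Set.toFinite _), ← Nat.card_coe_set_eq,
      ← Nat.card_coe_set_eq, hs.cardX, hs.cardY, add_comm]
  · refine ⟨fun χ => if χ ∈ Y then -ε else a χ, ?_, ?_⟩
    · intro χ hχ
      by_cases hχY : χ ∈ Y
      · simp only [if_pos hχY]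
        rcases hs.eps with h1 | h1 <;> rw [h1] <;> simp
      · simp only [if_neg hχY]
        exact hs.sign χ (by rw [← hBY]; exact ⟨hχ, hχY⟩)
    · intro x hx θ' hθ'
      rw [hBY]
      have h1 := hs.rel θ' hθ' x hx
      have h2 : ∑ᶠ χ ∈ X, (((if χ ∈ Y then -ε else a χ : ℤ)) : ℂ) * (χ : G → ℂ) x
          = ∑ᶠ χ ∈ X, (a χ : ℂ) * (χ : G → ℂ) x := by
        apply finsum_mem_congr rfl
        intro χ hχ
        rw [if_neg (fun hY => Set.disjoint_left.1 hs.disj hχ hY)]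
      rw [h2, ← h1]
      simp only [if_pos hθ']
      push_cast
      ring

end Cfsg.Agent.Lib.Helper78
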