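import Cfsg.Agent.Lib.Helper78.SelfCent2
import Cfsg.Agent.Lib.Helper29.Cores
import Cfsg.Prelude.Def_CaseTheorems

set_option autoImplicit false

namespace Cfsg.Agent.Lib.Helper78

open Subgroup
open scoped commutatorElement

variable {G : Type*} [Group G]

theorem sc_restrict_centralizer {x : G}
    (hC : Subgroup.centralizer ({x} : Set G) = Subgroup.zpowers x) (H : Subgroup G) (hxH : x ∈ H) :
    Subgroup.centralizer ({(⟨x, hxH⟩ : H)} : Set H) = Subgroup.zpowers (⟨x, hxH⟩ : H) := by
  ext ⟨g, hg⟩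
  rw [Subgroup.mem_centralizer_singleton_iff, Subgroup.mem_zpowers_iff]
  constructor
  · intro h
    have h1 : g * x = x * g := congrArg Subtype.val h
    obtain ⟨k, hk⟩ := Subgroup.mem_zpowers_iff.1 (sc_mem_zpowers_of_commute hC h1)
    exact ⟨k, by ext; simpa using hk⟩
  · rintro ⟨k, hk⟩
    rw [← hk]
    exact ((Commute.refl _).zpow_left k)

theorem sc_not_dvd_pPrimeCore [Finite G] {p : ℕ} (hp : p.Prime) :
    ¬ p ∣ Nat.card (Cfsg.pPrimeCore p G) := by
  have := Helper29.card_pPrimeCore_coprime (G := G) hp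
  rw [Nat.coprime_comm, Nat.Prime.coprime_iff_not_dvd hp] at this
  exact this

theorem sc_le_pPrimeCore {p : ℕ} (hp : p.Prime) (N : Subgroup G) [N.Normal]
    (h : ¬ p ∣ Nat.card N) : N ≤ Cfsg.pPrimeCore p G := by
  apply Helper29.le_pPrimeCore
  rw [Nat.coprime_comm, Nat.Prime.coprime_iff_not_dvd hp]
  exact h

theorem sc_pPrimeCore_le_commutator [Finite G] {p : ℕ} (hp : p.Prime) {x : G}
    (hx : orderOf x = p) (hC : Subgroup.centralizer ({x} : Set G) = Subgroup.zpowers x) :
    Cfsg.pPrimeCore p G ≤ commutator G := by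
  intro u hu
  obtain ⟨s, _, hs⟩ := sc_exists_commutator hp hx hC (Cfsg.pPrimeCore p G)
    (sc_not_dvd_pPrimeCore hp) hu
  rw [← hs, ← commutatorElement_def, commutator_def]
  exact Subgroup.commutator_mem_commutator (Subgroup.mem_top s) (Subgroup.mem_top x)

/-- the `p'`-core is invariant under automorphisms -/
theorem sc_pPrimeCore_map_le (p : ℕ) (φ : G ≃* G) :
    (Cfsg.pPrimeCore p G).map φ.toMonoidHom ≤ Cfsg.pPrimeCore p G := by
  unfold Cfsg.pPrimeCore
  rw [(Subgroup.gc_map_comap φ.toMonoidHom).l_sSup]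
  apply iSup₂_le
  rintro N ⟨hN, hc⟩
  apply le_sSup
  refine ⟨hN.map _ φ.surjective, ?_⟩
  rw [Subgroup.card_map_of_injective φ.injective]
  exact hc

/-- the `p'`-core of a normal subgroup is contained in the `p'`-core -/
theorem sc_pPrimeCore_normal_le [Finite G] {p : ℕ} (hp : p.Prime) (D : Subgroup G) [hD : D.Normal] :
    (Cfsg.pPrimeCore p D).map D.subtype ≤ Cfsg.pPrimeCore p G := by
  have hn : ((Cfsg.pPrimeCore p D).map D.subtype).Normal := by
    constructor
    rintro _ ⟨w, hw, rfl⟩ g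
    refine ⟨MulAut.conjNormal g w, ?_, ?_⟩
    · apply sc_pPrimeCore_map_le p (MulAut.conjNormal g)
      exact ⟨w, hw, rfl⟩
    · simp
  apply sc_le_pPrimeCore hp
  rw [Subgroup.card_map_of_injective D.subtype_injective]
  exact sc_not_dvd_pPrimeCore hp


/-- key dichotomy for normal subgroups of `D = G'` -/
theorem sc_normal_dichotomy [Finite G] {p : ℕ} (hp : p.Prime) {x : G}
    (hx : orderOf x = p) (hC : Subgroup.centralizer ({x} : Set G) = Subgroup.zpowers x)
    (hxD : x ∈ commutator G) (M : Subgroup (commutator G)) [hM : M.Normal] :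
    M ≤ (Cfsg.pPrimeCore p G).subgroupOf (commutator G) ∨ M = ⊤ := by
  have hx' : orderOf (⟨x, hxD⟩ : commutator G) = p := by
    rw [← hx]; exact Subgroup.orderOf_mk x hxD
  have hC' := sc_restrict_centralizer hC (commutator G) hxD
  by_cases hpM : p ∣ Nat.card M
  · right
    have h1 := sc_mem_normal hp hx' hC' M hpM
    have h2 : ∀ g : G, ∀ (hg : g * x * g⁻¹ ∈ commutator G),
        (⟨g * x * g⁻¹, hg⟩ : commutator G) ∈ M := by
      intro g hg
      have ho : orderOf (⟨g * x * g⁻¹, hg⟩ : commutator G) = p := by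
        rw [Subgroup.orderOf_mk, ← hx]
        exact (MulAut.conj g).orderOf_eq x
      obtain ⟨d, hd⟩ := sc_pgroup_conj hp hx' hC' (Subgroup.zpowers ⟨g * x * g⁻¹, hg⟩)
        (sc_isPGroup_zpowers hp ho)
      have h3 := hd _ (Subgroup.mem_zpowers _)
      have h4 : Subgroup.zpowers (⟨x, hxD⟩ : commutator G) ≤ M := by
        rw [Subgroup.zpowers_le]; exact h1
      have h5 := hM.conj_mem _ (h4 h3) d
      have h6 : d * (d⁻¹ * (⟨g * x * g⁻¹, hg⟩ : commutator G) * d) * d⁻¹ = ⟨g * x * g⁻¹, hg⟩ := by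
        group
      rwa [h6] at h5
    have h3 : Subgroup.normalClosure {x} ≤ M.map (commutator G).subtype := by
      rw [Subgroup.normalClosure, Subgroup.closure_le]
      intro y hy
      rw [Group.mem_conjugatesOfSet_iff] at hy
      obtain ⟨a, ha, hc⟩ := hy
      rw [Set.mem_singleton_iff] at ha
      subst ha
      obtain ⟨g, rfl⟩ := isConj_iff.1 hc
      have hg : g * a * g⁻¹ ∈ commutator G :=
        (inferInstance : (commutator G).Normal).conj_mem _ hxD g
      exact ⟨⟨g * a * g⁻¹, hg⟩, h2 g hg, rfl⟩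
    have h4 : commutator G ≤ Subgroup.normalClosure {x} := by
      apply sc_commutator_le hp hx hC
      have h5 : Subgroup.zpowers x ≤ Subgroup.normalClosure {x} := by
        rw [Subgroup.zpowers_le]
        exact Subgroup.subset_normalClosure (Set.mem_singleton x)
      have h6 := Subgroup.card_dvd_of_le h5
      rwa [Nat.card_zpowers, hx] at h6
    rw [eq_top_iff]
    intro d _
    obtain ⟨m, hm, hmd⟩ := h3 (h4 d.2)
    have : m = d := Subtype.ext hmd
    rwa [← this]
  · left
    have h1 : M ≤ Cfsg.pPrimeCore p (commutator G) := sc_le_pPrimeCore hp M hpM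
    intro m hm
    rw [Subgroup.mem_subgroupOf]
    apply sc_pPrimeCore_normal_le hp (commutator G)
    exact ⟨m, h1 hm, rfl⟩

theorem sc_isSimpleGroup [Finite G] {p : ℕ} (hp : p.Prime) {x : G}
    (hx : orderOf x = p) (hC : Subgroup.centralizer ({x} : Set G) = Subgroup.zpowers x)
    (hxD : x ∈ commutator G)
    (h : ((Cfsg.pPrimeCore p G).subgroupOf (commutator G)).Normal) :
    IsSimpleGroup (↥(commutator G) ⧸ (Cfsg.pPrimeCore p G).subgroupOf (commutator G)) := by
  refine { exists_pair_ne := ?_, eq_bot_or_eq_top_of_normal := ?_ }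
  · refine ⟨QuotientGroup.mk (⟨x, hxD⟩ : commutator G), 1, fun h1 => ?_⟩
    rw [QuotientGroup.eq_one_iff, Subgroup.mem_subgroupOf] at h1
    exact sc_not_mem hp hx _ (sc_not_dvd_pPrimeCore hp) h1
  · intro H hH
    have hsurj := QuotientGroup.mk'_surjective ((Cfsg.pPrimeCore p G).subgroupOf (commutator G))
    rcases sc_normal_dichotomy hp hx hC hxD
      (H.comap (QuotientGroup.mk' ((Cfsg.pPrimeCore p G).subgroupOf (commutator G)))) with h1 | h1
    · left
      rw [← Subgroup.map_comap_eq_self_of_surjective hsurj H, eq_bot_iff]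
      refine (Subgroup.map_mono h1).trans ?_
      rw [QuotientGroup.map_mk'_self]
    · right
      rw [← Subgroup.map_comap_eq_self_of_surjective hsurj H, h1]
      exact Subgroup.map_top_of_surjective _ hsurj

end Cfsg.Agent.Lib.Helper78
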