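import Cfsg.Agent.Lib.Helper78.SelfCent3

set_option autoImplicit false

namespace Cfsg.Agent.Lib.Helper78

open Subgroup
open scoped commutatorElement

variable {G : Type*} [Group G]

theorem sc_inf_normalizer [Finite G] {p : ℕ} (hp : p.Prime) {x : G} (hx : orderOf x = p)
    (hC : Subgroup.centralizer ({x} : Set G) = Subgroup.zpowers x) (S : Subgroup G) [hN : S.Normal]
    (hS : ¬ p ∣ Nat.card S) :
    S ⊓ Subgroup.normalizer ((Subgroup.zpowers x : Subgroup G) : Set G) = ⊥ := by
  rw [eq_bot_iff]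
  intro s hs
  obtain ⟨hs1, hs2⟩ := Subgroup.mem_inf.1 hs
  rw [Subgroup.mem_bot]
  apply sc_eq_one_of_commute hp hx hC S hS hs1
  have h1 : s * x * s⁻¹ ∈ Subgroup.zpowers x := sc_mem_normalizer_iff.1 hs2
  have h2 : s * x * s⁻¹ * x⁻¹ ∈ Subgroup.zpowers x :=
    Subgroup.mul_mem _ h1 (Subgroup.inv_mem _ (Subgroup.mem_zpowers x))
  have h3 : s * x * s⁻¹ * x⁻¹ ∈ S := by
    have h4 : x * s⁻¹ * x⁻¹ ∈ S := hN.conj_mem _ (S.inv_mem hs1) x
    have h5 : s * x * s⁻¹ * x⁻¹ = s * (x * s⁻¹ * x⁻¹) := by group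
    rw [h5]; exact S.mul_mem hs1 h4
  have h6 : (s * x * s⁻¹ * x⁻¹) * x = x * (s * x * s⁻¹ * x⁻¹) := by
    obtain ⟨k, hk⟩ := Subgroup.mem_zpowers_iff.1 h2
    rw [← hk]
    exact ((Commute.refl x).zpow_left k)
  have h7 := sc_eq_one_of_commute hp hx hC S hS h3 h6
  calc s * x = (s * x * s⁻¹ * x⁻¹) * (x * s) := by group
    _ = x * s := by rw [h7, one_mul]

theorem sc_index_normalizer_eq [Finite G] {p : ℕ} (hp : p.Prime) {x : G} (hx : orderOf x = p)
    (hC : Subgroup.centralizer ({x} : Set G) = Subgroup.zpowers x) (S : Subgroup G) [hN : S.Normal]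
    (hS : ¬ p ∣ Nat.card S) :
    (Subgroup.normalizer ((Subgroup.zpowers x : Subgroup G) : Set G)).index =
      Nat.card S * (Subgroup.normalizer ((Subgroup.zpowers x : Subgroup G) : Set G) ⊔ S).index := by
  have hinf := sc_inf_normalizer hp hx hC S hS
  set N := Subgroup.normalizer ((Subgroup.zpowers x : Subgroup G) : Set G) with hNdef
  have h1 : S.relIndex (N ⊔ S) = Nat.card N := by
    rw [Subgroup.relIndex_sup_right, ← Subgroup.inf_relIndex_right, hinf, Subgroup.relIndex_bot_left]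
  have h2 : S.relIndex (N ⊔ S) * (N ⊔ S).index = S.index :=
    Subgroup.relIndex_mul_index le_sup_right
  have h3 := Subgroup.card_mul_index S
  have h4 := Subgroup.card_mul_index N
  rw [← h2, h1, ← h4] at h3
  have hpos : 0 < Nat.card N := Nat.card_pos
  have h5 : Nat.card N * (Nat.card S * (N ⊔ S).index) = Nat.card N * N.index := by
    rw [← h3]; ring
  exact (Nat.eq_of_mul_eq_mul_left hpos h5).symm

theorem sc_second_derived_le [Finite G] {x : G}
    (hC : Subgroup.centralizer ({x} : Set G) = Subgroup.zpowers x) (S : Subgroup G) [hN : S.Normal]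
    (hF : Subgroup.normalizer ((Subgroup.zpowers x : Subgroup G) : Set G) ⊔ S = ⊤) :
    ⁅commutator G, commutator G⁆ ≤ S := by
  have key : ∀ g : G, ∃ n ∈ Subgroup.normalizer ((Subgroup.zpowers x : Subgroup G) : Set G),
      (QuotientGroup.mk g : G ⧸ S) = QuotientGroup.mk n := by
    intro g
    have hg : g ∈ Subgroup.normalizer ((Subgroup.zpowers x : Subgroup G) : Set G) ⊔ S := by
      rw [hF]; exact Subgroup.mem_top g
    rw [← SetLike.mem_coe, Subgroup.mul_normal] at hg
    obtain ⟨n, hn, s, hs, rfl⟩ := Set.mem_mul.1 hg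
    refine ⟨n, hn, ?_⟩
    rw [QuotientGroup.mk_mul, (QuotientGroup.eq_one_iff s).2 hs, mul_one]
  have h1 : commutator G ≤
      (Subgroup.zpowers (QuotientGroup.mk x : G ⧸ S)).comap (QuotientGroup.mk' S) := by
    rw [commutator_def, Subgroup.commutator_le]
    intro g₁ _ g₂ _
    obtain ⟨n₁, hn₁, h₁⟩ := key g₁
    obtain ⟨n₂, hn₂, h₂⟩ := key g₂
    rw [Subgroup.mem_comap, QuotientGroup.mk'_apply]
    have h3 : ((⁅g₁, g₂⁆ : G) : G ⧸ S) = ((⁅n₁, n₂⁆ : G) : G ⧸ S) := by
      simp only [commutatorElement_def, QuotientGroup.mk_mul, QuotientGroup.mk_inv, h₁, h₂]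
    rw [h3]
    have h4 := sc_commutator_mem hC (sc_mem_normalizer_iff.1 hn₁) (sc_mem_normalizer_iff.1 hn₂)
    obtain ⟨k, hk⟩ := Subgroup.mem_zpowers_iff.1 h4
    rw [← hk, QuotientGroup.mk_zpow]
    exact Subgroup.zpow_mem_zpowers _ _
  rw [Subgroup.commutator_le]
  intro d₁ hd₁ d₂ hd₂
  obtain ⟨a, ha⟩ := Subgroup.mem_zpowers_iff.1 (h1 hd₁)
  obtain ⟨b, hb⟩ := Subgroup.mem_zpowers_iff.1 (h1 hd₂)
  rw [QuotientGroup.mk'_apply] at ha hb
  rw [← QuotientGroup.eq_one_iff]
  have h5 : ((⁅d₁, d₂⁆ : G) : G ⧸ S) = ⁅(d₁ : G ⧸ S), (d₂ : G ⧸ S)⁆ := by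
    simp only [commutatorElement_def, QuotientGroup.mk_mul, QuotientGroup.mk_inv]
  rw [h5, commutatorElement_eq_one_iff_mul_comm, ← ha, ← hb, ← zpow_add, ← zpow_add, add_comm]

theorem sc_second_derived_eq [Finite G] {p : ℕ} (hp : p.Prime) {x : G} (hx : orderOf x = p)
    (hC : Subgroup.centralizer ({x} : Set G) = Subgroup.zpowers x)
    (hxD : x ∈ commutator G) (hne : ⁅commutator G, commutator G⁆ ≠ commutator G) :
    ⁅commutator G, commutator G⁆ = Cfsg.pPrimeCore p G := by
  have hle : ⁅commutator G, commutator G⁆ ≤ commutator G := Subgroup.commutator_le_self _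
  apply le_antisymm
  · have : (⁅commutator G, commutator G⁆.subgroupOf (commutator G)).Normal :=
      Subgroup.Normal.subgroupOf (Subgroup.commutator_normal _ _) _
    rcases sc_normal_dichotomy hp hx hC hxD (⁅commutator G, commutator G⁆.subgroupOf (commutator G))
      with h1 | h1
    · intro d hd
      exact h1 (show (⟨d, hle hd⟩ : commutator G) ∈ _ from hd)
    · exfalso
      apply hne
      apply le_antisymm hle
      rwa [Subgroup.subgroupOf_eq_top] at h1
  · intro u hu
    obtain ⟨s, hs, hsu⟩ := sc_exists_commutator hp hx hC (Cfsg.pPrimeCore p G)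
      (sc_not_dvd_pPrimeCore hp) hu
    rw [← hsu, ← commutatorElement_def]
    exact Subgroup.commutator_mem_commutator (sc_pPrimeCore_le_commutator hp hx hC hs) hxD

theorem sc_card_commutator [Finite G] {p : ℕ} (hp : p.Prime) {x : G} (hx : orderOf x = p)
    (hC : Subgroup.centralizer ({x} : Set G) = Subgroup.zpowers x)
    (hxD : x ∈ commutator G) (hS : ¬ p ∣ Nat.card (⁅commutator G, commutator G⁆ : Subgroup G)) :
    Nat.card (commutator G) = p * Nat.card (⁅commutator G, commutator G⁆ : Subgroup G) := by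
  have hx' : orderOf (⟨x, hxD⟩ : commutator G) = p := by
    rw [← hx]; exact Subgroup.orderOf_mk x hxD
  have hC' := sc_restrict_centralizer hC (commutator G) hxD
  have h1 : Nat.card (commutator (commutator G)) = Nat.card (⁅commutator G, commutator G⁆ : Subgroup G) := by
    rw [← Subgroup.map_subtype_commutator,
      Subgroup.card_map_of_injective (commutator G).subtype_injective]
  have h2 := (sc_index_commutator_eq hp hx' hC' (by rw [h1]; exact hS)).1
  have h3 := Subgroup.card_mul_index (commutator (commutator G))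
  rw [h2, h1] at h3
  rw [← h3, mul_comm]

end Cfsg.Agent.Lib.Helper78
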